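import Mathlib
import Cfsg.Agent.H63.AnDefs2

/-! Embeddings of alternating groups which commute with an involution. -/

set_option autoImplicit false

namespace Cfsg.Agent.H44.AnNat

open Subgroup Cfsg.Agent.H63.AN Equiv Equiv.Perm
open Cfsg.Agent.H78 (altOn symOn)
open scoped Pointwise

theorem simple_altOn {α : Type} [Fintype α] [DecidableEq α] {X : Finset α} (hX : 5 ≤ X.card) :
    IsSimpleGroup (altOn X) := by
  have h1 : altOn X = (alternatingGroup X).map (ofSubtype : Perm X →* Perm α) := by
    rw [alternatingGroup.map_ofSubtype]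
    ext σ
    rw [Subgroup.mem_inf, Perm.mem_range_ofSubtype_iff, altOn, Subgroup.mem_inf,
      H78.mem_symOn_iff_support]
    rfl
  have := alternatingGroup.isSimpleGroup (α := X) (by
    rwa [Nat.card_eq_fintype_card, Fintype.card_coe])
  rw [h1]
  exact (equivMapOfInjective _ _ ofSubtype_injective).symm.isSimpleGroup

theorem triv {Γ H : Type} [Group Γ] [IsSimpleGroup Γ] [Group H] [Finite H]
    (h : Nat.card H < Nat.card Γ) (f : Γ →* H) (g : Γ) : f g = 1 := by
  rcases f.normal_ker.eq_bot_or_eq_top with e | e
  · exact absurd (Nat.card_le_card_of_injective f (f.ker_eq_bot_iff.1 e)) (by omega)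
  · exact (e ▸ mem_top g : g ∈ f.ker)

theorem fac_lt {k m c : ℕ} (hm : 5 ≤ m) (hk : k < m) (hc : 2 * c = m.factorial) : k.factorial < c := by
  obtain ⟨m, rfl⟩ : ∃ j, m = j + 1 := ⟨m - 1, by omega⟩
  have h1 : k.factorial ≤ m.factorial := Nat.factorial_le (by omega)
  have h2 := Nat.factorial_pos m
  rw [Nat.factorial_succ] at hc
  nlinarith

theorem fix {Γ β : Type} [Group Γ] [IsSimpleGroup Γ] [MulAction Γ β] (U : Finset β)
    (hU : ∀ g : Γ, ∀ y ∈ U, g • y ∈ U) (hc : U.card.factorial < Nat.card Γ) (g : Γ) :
    ∀ y ∈ U, g • y = y := by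
  classical
  let _ : MulAction Γ U :=
    { smul := fun g y => ⟨g • y.1, hU g y y.2⟩
      one_smul := fun y => Subtype.ext (one_smul Γ y.1)
      mul_smul := fun a b y => Subtype.ext (mul_smul a b y.1) }
  intro y hy
  have := triv (by rwa [Nat.card_perm, Nat.card_eq_finsetCard]) (MulAction.toPermHom Γ U) g
  exact congrArg (fun p : Perm U => (p ⟨y, hy⟩).1) this

theorem nat : NatStmt := by
  intro α _ _ S T φ q inj h5 hT hφ hq qq com
  have := simple_altOn h5
  have hc := H78.two_mul_card_altOn (X := S) (by omega)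
  have sub : q.support ⊆ T := H78.mem_symOn_iff_support.1 hq
  have qx : ∀ x, q (q x) = x := fun x => congrArg (· x) qq
  have cx : ∀ σ x, φ σ (q x) = q (φ σ x) := fun σ x => congrArg (· x) (com σ).eq
  have h1 : ∀ σ, ∀ x ∈ q.support, φ σ • ({x, q x} : Finset α) = {x, q x} := by
    let _ : MulAction (altOn S) (Finset α) := MulAction.compHom _ φ
    intro σ x hx
    refine fix (q.support.image fun x => ({x, q x} : Finset α)) (fun g y hy => ?_)
      (fac_lt h5 ?_ hc) σ _ (Finset.mem_image_of_mem _ hx)
    · obtain ⟨x, hx, rfl⟩ := Finset.mem_image.1 hy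
      refine Finset.mem_image.2 ⟨φ g x, ?_, ?_⟩
      · rw [mem_support, ← cx]
        exact (φ g).injective.ne (mem_support.1 hx)
      · show _ = φ g • ({x, q x} : Finset α)
        rw [Finset.smul_finset_def, Finset.image_insert, Finset.image_singleton, Perm.smul_def,
          Perm.smul_def, cx]
    · have h2 := Finset.mul_card_image_le_card (f := fun x => ({x, q x} : Finset α)) q.support 2
        fun a ha => by
          obtain ⟨x, hx, rfl⟩ := Finset.mem_image.1 ha
          rw [← Finset.card_pair (mem_support.1 hx).symm]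
          refine Finset.card_le_card fun y hy => Finset.mem_filter.2 ?_
          rcases Finset.mem_insert.1 hy with rfl | hy
          · exact ⟨hx, rfl⟩
          · rw [Finset.mem_singleton.1 hy]
            exact ⟨apply_mem_support.2 hx, by rw [qx, Finset.pair_comm]⟩
      have := Finset.card_le_card sub
      omega
  have h2 : ∀ σ, ∀ x ∈ q.support, φ σ x = x := by
    let _ : MulAction (altOn S) α := MulAction.compHom _ φ
    intro σ x hx
    refine fix ({x, q x} : Finset α) (fun g y hy => ?_) (fac_lt h5 ?_ hc) σ x (by simp)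
    · rw [← h1 g x hx]
      exact Finset.smul_mem_smul_finset hy
    · have := Finset.card_le_two (a := x) (b := q x)
      omega
  have h3 : ∀ σ, φ σ ∈ altOn (T \ q.support) := fun σ => ⟨fun x hx => by
    by_cases h : x ∈ q.support
    · exact h2 σ x h
    · exact hφ σ x fun k => hx (Finset.mem_sdiff.2 ⟨k, h⟩),
    triv (by simpa using fac_lt h5 (k := 2) (by omega) hc) (sign.comp φ) σ⟩
  have h4 : φ.range ≤ altOn (T \ q.support) := by rintro _ ⟨σ, rfl⟩; exact h3 σ
  have h6 : Nat.card φ.range = Nat.card (altOn S) :=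
    (Nat.card_congr (MonoidHom.ofInjective inj).toEquiv).symm
  have h7 := Finset.card_sdiff_add_card_eq_card sub
  refine ⟨h3, ?_, fun e => eq_of_le_of_card_ge h4 ?_⟩
  · by_contra h
    have h8 := fac_lt h5 (k := (T \ q.support).card) (by omega) hc
    have h9 := card_le_of_le (h4.trans (inf_le_left : altOn _ ≤ symOn _))
    rw [H78.card_symOn] at h9
    omega
  · have h8 := H78.two_mul_card_altOn (X := T \ q.support) (by omega)
    rw [show (T \ q.support).card = S.card by omega] at h8
    omega

end Cfsg.Agent.H44.AnNat
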