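import Mathlib
import Cfsg.Agent.H27.AltCard
import Cfsg.Agent.H44.MatW
import Cfsg.Agent.H44.S44sM

/-!
# The presentation `S44s` presents `Sp₄(4)`
-/

set_option autoImplicit false
set_option maxRecDepth 100000

namespace Cfsg.Agent.H44.S44I

open Cfsg.Agent.H44.MW Cfsg.Agent.H46 H28

/-- Codes of five transvections. -/
def c : List ℕ := [0, 1152922608414490625, 1152922604119524097, 1158270843425390593, 1152922604387958785, 1152922612709457921]

/-- The numbering of the coordinates. -/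
def e : Fin 2 ⊕ Fin 2 ≃ Fin 4 := finSumFinEquiv

theorem mem : ∀ x < 6, 1 ≤ x → decM φ4 4 e (getL c x) * Matrix.J (Fin 2) F4 *
    (decM φ4 4 e (getL c x)).transpose = Matrix.J (Fin 2) F4 := by decide +kernel

/-- The transvections. -/
noncomputable def g (x : ℕ) : Matrix.symplecticGroup (Fin 2) F4 :=
  if h : x < 6 ∧ 1 ≤ x then ⟨decM φ4 4 e (getL c x), mem x h.1 h.2⟩ else 1

/-- The underlying matrix. -/
def ρ : Matrix.symplecticGroup (Fin 2) F4 →* Matrix (Fin 2 ⊕ Fin 2) (Fin 2 ⊕ Fin 2) F4 :=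
  (Matrix.symplecticGroup (Fin 2) F4).subtype

theorem cd : Cd φ4 4 4 e ρ g c 5 := fun x h1 h2 =>
  ⟨canon_of_canonB (by interval_cases x <;> decide +kernel), by
    rw [g, dif_pos ⟨by omega, h1⟩]; rfl⟩

theorem sat : Sat g S44s.Rm :=
  cd.sat (mc4 (by norm_num) (by norm_num)) Subtype.val_injective (by decide +kernel)
    (by decide +kernel)

theorem ne : g 1 ≠ 1 := fun h => by
  have := (cd 1 le_rfl (by norm_num)).2
  rw [h, map_one] at this
  exact absurd this (by decide +kernel)

theorem top : gen g 5 = ⊤ :=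
  Subgroup.eq_top_of_card_eq _ (by
    rw [(S44sM.simple_card sat ne).2, H27.card_sp, card_F4]; decide +kernel)

/-- A non-trivial group satisfying the relators is `Sp₄(4)`. -/
theorem equiv {G : Type*} [Group G] {h : ℕ → G} (hh : Sat h S44s.Rm) (hne : h 1 ≠ 1) :
    Nonempty (gen h 5 ≃* Matrix.symplecticGroup (Fin 2) F4) :=
  let ⟨e1⟩ := S44sM.exists_equiv hh hne
  let ⟨e2⟩ := S44sM.exists_equiv sat ne
  ⟨e1.symm.trans <| e2.trans <| (MulEquiv.subgroupCongr top).trans Subgroup.topEquiv⟩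

end Cfsg.Agent.H44.S44I
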