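import Mathlib
import Cfsg.Agent.H44.HeM
import Cfsg.Agent.H44.Glue
import Cfsg.Agent.H44.S44I

/-!
# `Sp₄(4)` in the Held group
-/

set_option autoImplicit false
set_option maxRecDepth 100000

namespace Cfsg.Agent.H44.HeS

open Cfsg.Agent.H43 H28

/-- Words for five involutions. -/
def W : List (List ℕ) := [[], [3, 4, 3, 4, 3], [3], [5, 6, 4, 3, 5, 4, 3, 4, 5, 3, 4, 6, 5], [6, 4, 5, 2, 3, 4, 5, 2, 3, 4, 5, 2, 3, 4, 5, 2, 3, 4, 5, 2, 3, 4, 5, 2, 3, 4, 5, 2, 3, 4, 5, 6, 4, 3, 4, 6, 5, 4, 3, 2, 5, 4, 3, 2, 5, 4, 3, 2, 5, 4, 3, 2, 5, 4, 3, 2, 5, 4, 3, 2, 5, 4, 3, 2, 5, 4, 6], [4, 3, 5, 4, 3, 4, 5, 3, 4]]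

theorem sat : Sat (wt He.gm W) S44s.Rm :=
  Gl.sat_wt (HeM.model.sat HeM.inj (by decide +kernel)
    (sat_of_satB (k := 12) (L := lab 2058 12) HeM.m_hn (det_lab HeM.m_hk _) HeM.E_ok le_rfl
      (by decide +kernel)))

theorem ne : wt He.gm W 1 ≠ 1 :=
  Gl.ne_one HeM.model (l := [3, 4, 3, 4, 3]) (by decide) (a := 1) (b := 40) (by decide) (by decide)
    (by decide) (by decide +kernel)

theorem main : ∃ N : Subgroup (wgen He.gm [[1], [3], [4], [5], [6], [1, 2, 1, 2], [2, 3, 4, 5, 2, 3, 4, 5, 2, 3, 4, 5, 2, 3, 4, 5, 2, 3, 4, 5, 2, 3, 4, 5, 2, 3, 4, 5]]),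
    N.Normal ∧ N.index = 2 ∧ Nonempty (N ≃* Matrix.symplecticGroup (Fin 2) F4) := by
  refine Gl.exists_index_two ((Gl.gen_wt_le _ W 5).trans (Gl.wgen_le HeM.model HeM.act
    (by decide +kernel) (by decide +kernel))) (by norm_num) ?_ (S44sM.simple_card sat ne).2
    (S44I.equiv sat ne)
  have := Subgroup.index_mul_card (wgen He.gm [[1], [3], [4], [5], [6], [1, 2, 1, 2], [2, 3, 4, 5, 2, 3, 4, 5, 2, 3, 4, 5, 2, 3, 4, 5, 2, 3, 4, 5, 2, 3, 4, 5, 2, 3, 4, 5]])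
  rw [HeM.act.index, HeM.card, Nat.card_fin] at this
  omega

end Cfsg.Agent.H44.HeS
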