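import Mathlib
import Cfsg.Agent.H97.JmDefs

/-! The number of conjugates of a Sylow subgroup with trivial intersections. -/

set_option autoImplicit false

namespace Cfsg.Agent.H97.JM

open Subgroup MulAction

universe u

theorem pTI : TI.{u} := by
  intro G _ _ hG U H hU
  have : Fact (Nat.Prime 11) := ⟨by norm_num⟩
  let X : SubMulAction (U : Subgroup G) (Sylow 11 G) :=
    { carrier := orbit H U \ {U}
      smul_mem' := fun c V hV => by
        obtain ⟨⟨h, rfl⟩, hn⟩ := hV
        refine ⟨⟨⟨c, hU c.2⟩ * h, mul_smul _ _ _⟩, fun e => hn ?_⟩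
        have e1 : (c : G) • U = U := Sylow.smul_eq_iff_mem_normalizer.2 (le_normalizer c.2)
        exact smul_left_cancel (c : G) ((show (c : G) • h • U = U from e).trans e1.symm) }
  have free : ∀ V : X, stabilizer (U : Subgroup G) V = ⊥ := fun V => by
    rw [eq_bot_iff]
    intro c hc
    by_contra h1
    have e1 : (c : G) • (V : Sylow 11 G) = V := congrArg Subtype.val (mem_stabilizer_iff.1 hc)
    have e2 : (c : G) ∈ (U : Subgroup G) ⊓ (V : Sylow 11 G) := by
      rw [← U.isPGroup'.inf_normalizer_sylow]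
      exact ⟨c.2, Sylow.smul_eq_iff_mem_normalizer.1 e1⟩
    refine V.2.2 (hG.ti U V fun e => h1 ?_).symm
    rw [e] at e2
    exact Subtype.ext e2
  have c1 := Nat.card_congr (selfEquivOrbitsQuotientProd free)
  rw [Nat.card_prod, (hG.n11 U).1] at c1
  have c2 : Nat.card X + 1 = (orbit H U).ncard :=
    Set.ncard_sdiff_singleton_add_one (mem_orbit_self U)
  have c3 : stabilizer H U = (H ⊓ normalizer ((U : Subgroup G) : Set G)).subgroupOf H := by
    ext h
    rw [mem_stabilizer_iff, mem_subgroupOf]
    exact Sylow.smul_eq_iff_mem_normalizer.trans ⟨fun a => ⟨h.2, a⟩, fun a => a.2⟩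
  have c4 := (stabilizer H U).card_mul_index
  rw [index_stabilizer, c3, Nat.card_congr (subgroupOfEquivOfLe inf_le_left).toEquiv] at c4
  rw [← c4, Nat.mul_div_cancel_left _ Nat.card_pos, ← c2, c1]
  omega

end Cfsg.Agent.H97.JM
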