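import Cfsg.Agent.H44.K5Defs
import Cfsg.Agent.H54.BdCh
import Cfsg.Agent.H29.K0R0
import Cfsg.Agent.H47.K0R
import Cfsg.Agent.H49.K0Gal
import Cfsg.Agent.H26.K0Ineq
import Cfsg.Agent.H21.Basic
import Cfsg.Agent.H19.GaloisBlock

set_option autoImplicit false

namespace Cfsg.Agent.H44.K5Ch

open Cfsg Cfsg.Agent.H76.K0 Cfsg.Agent.H44.K5

universe u

theorem ch (nei : NeiStmt) : ChStmt.{u} := by
  intro G _ _ p hp M hM P h5
  classical
  obtain ⟨h1, h2, h4, h6⟩ := H29.K0R0.r0 H47.K0R.r G p M hM P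
  have hP : p ∣ Nat.card P := by
    by_contra h
    have := h6 h
    omega
  let t : Ht0 p M G := ⟨H21.triv G, H21.triv_mem_principal hM.2.1, by
    change ¬ p ∣ charDegree (fun _ : G => (1 : ℂ))
    rw [H21.charDegree_one]; exact hp.out.not_dvd_one⟩
  have : Finite (Ht0 p M G) := Nat.finite_of_card_ne_zero (by omega)
  have := Fintype.ofFinite (Ht0 p M G)
  let E0 := (Finite.equivFinOfCardEq h5).symm
  let E : Fin 5 ≃ Ht0 p M G := E0.trans (Equiv.swap (E0 0) t)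
  have hE : E 0 = t := by simp [E]
  let D : Fin 5 → ℕ := fun i => charDegree ((E i).1 : G → ℂ)
  have hD0 : D 0 = 1 := by simp only [D, hE]; exact H21.charDegree_one
  have hDp : ∀ i, ¬ p ∣ D i := fun i => (E i).2.2
  have hs : ∑ᶠ χ : Ht0 p M G, charDegree (χ.1 : G → ℂ) ^ 2 = 1 + D 1 ^ 2 + D 2 ^ 2 + D 3 ^ 2 + D 4 ^ 2 := by
    rw [finsum_eq_sum_of_fintype, ← E.sum_comp, Fin.sum_univ_five]
    change D 0 ^ 2 + _ + _ + _ + _ = _
    rw [hD0, one_pow]
  have h2' := h2 hP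
  rw [hs] at h2' h4
  have hp2 : p ≠ 2 := by
    rintro rfl
    have a : ∀ i, D i ^ 2 % 2 = 1 := fun i =>
      Nat.odd_iff.mp ((Nat.not_even_iff_odd.mp (fun h => hDp i h.two_dvd)).pow (n := 2))
    have a1 := a 1; have a2 := a 2; have a3 := a 3; have a4 := a 4
    omega
  obtain ⟨a, b, c, d, e, ha, ⟨m1, hb⟩, ⟨m2, hc⟩, ⟨m3, hd⟩, ⟨m4, he⟩, hq⟩ := nei p hp.out hp2 (D 1) (D 2) (D 3) (D 4)
    (fun h => hDp 1 (Int.natCast_dvd_natCast.mp h)) (by exact_mod_cast h2')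
  let v : Fin 5 → ℤ := ![a, b, c, d, e]
  let m : Fin 5 → ℤ := ![0, m1, m2, m3, m4]
  have hv : ∀ i, v i = a * D i + p * m i := by
    intro i
    fin_cases i
    · simp [v, m, hD0]
    · change b = a * D 1 + p * m1; linarith
    · change c = a * D 2 + p * m2; linarith
    · change d = a * D 3 + p * m3; linarith
    · change e = a * D 4 + p * m4; linarith
  have hp0 : (p : ℂ) ≠ 0 := Nat.cast_ne_zero.mpr hp.out.ne_zero
  have hz : ∀ k : ℤ, IsIntegral ℤ (k : ℂ) := fun k => isIntegral_algebraMap (x := k)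
  have hg := (H54.BdCh.gen (H26.K0Ineq.ineq H49.K0Gal.gal) G (fun i => (E i).1)
    (fun i j h => E.injective (Subtype.ext h)) 0 (by simp only [hE]; rfl) v p hp.out.pos (fun g => by
      obtain ⟨α, hα, h⟩ := h1 hP g
      rw [finsum_eq_sum_of_fintype, ← E.sum_comp] at h
      have : (∑ i, (v i : ℂ) * ((E i).1 : G → ℂ) g) / p = a * α + ∑ i, (m i : ℂ) * ((E i).1 : G → ℂ) g := by
        rw [div_eq_iff hp0, add_mul, mul_assoc, mul_comm α, ← h, Finset.mul_sum, Finset.sum_mul,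
          ← Finset.sum_add_distrib]
        refine Finset.sum_congr rfl fun i _ => ?_
        rw [hv i]; push_cast; simp only [D]; ring
      rw [this]
      exact ((hz a).mul hα).add (IsIntegral.sum _ fun i _ => (hz _).mul (H19.irr_isIntegral _ g)))).2
    (by rw [Fin.sum_univ_five]; exact hq)
  rw [Fin.sum_univ_five] at hg
  change a * D 0 + b * D 1 + c * D 2 + d * D 3 + e * D 4 = 0 ∨ a * D 0 + b * D 1 + c * D 2 + d * D 3 + e * D 4 = p at hg
  rw [hD0] at hg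
  obtain ⟨k, hk⟩ := P.isPGroup'.exists_card_eq
  rw [hk] at hP h4 ⊢
  rcases k with _ | _ | k
  · exact absurd hP (by simpa using hp.out.not_dvd_one)
  · simp
  exfalso
  obtain ⟨s, hs⟩ := Int.natCast_dvd_natCast.mpr (h4 (pow_dvd_pow p (by omega)))
  push_cast at hs hg
  have hpz : (p : ℤ) ≠ 0 := Nat.cast_ne_zero.mpr hp.out.ne_zero
  apply ha
  obtain rfl : b = a * D 1 + p * m1 := by linarith
  obtain rfl : c = a * D 2 + p * m2 := by linarith
  obtain rfl : d = a * D 3 + p * m3 := by linarith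
  obtain rfl : e = a * D 4 + p * m4 := by linarith
  rcases hg with hg | hg
  · refine ⟨-(a ^ 2 * s) + (m1 ^ 2 + m2 ^ 2 + m3 ^ 2 + m4 ^ 2), mul_left_cancel₀ hpz ?_⟩
    linear_combination hq + 2 * a * hg - a ^ 2 * hs
  · refine ⟨a ^ 2 * s - (m1 ^ 2 + m2 ^ 2 + m3 ^ 2 + m4 ^ 2), mul_left_cancel₀ hpz ?_⟩
    linear_combination (-1) * hq - 2 * a * hg + a ^ 2 * hs

end Cfsg.Agent.H44.K5Ch
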