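import Mathlib
import Cfsg.Agent.H44.ONM
import Cfsg.Agent.H44.J1sM
import Cfsg.Agent.H44.M11sM

set_option autoImplicit false
set_option maxRecDepth 1000000
set_option linter.all false
set_option Elab.async false

namespace Cfsg.Agent.H44.ONJ

open Cfsg.Agent.H44 Cfsg.Agent.H43 

/-- Words for the generators of a subgroup of order 175560. -/
def WJ : List (List ℕ) := [[], [1], [4, 3, 5, 4, 7, 2, 5, 4, 3, 2, 4, 5, 8, 4, 3, 5, 4], [3, 5, 4, 3, 5, 6, 5, 4, 3, 7, 5, 4, 8, 3, 4, 5], [5, 4, 3, 4, 6, 7, 5, 7, 4, 3, 4, 5], [4, 6, 5, 4, 7, 5, 4, 7, 5]]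

theorem satJ : Sat (wt ON.gm WJ) J1s.Rm := ONM.sat_of_tr (by decide) (by decide +kernel)

theorem subJ : IsSimpleGroup (gen (wt ON.gm WJ) 5) ∧ Nat.card (gen (wt ON.gm WJ) 5) = 175560 :=
  J1sM.simple_card satJ (by
    rw [← ev_single (wt ON.gm WJ) 1]
    exact ONM.ne_one_of_tr (q := 2) (by decide) (by norm_num) (by decide +kernel))

/-- Words for the generators of a subgroup of order 7920. -/
def WM : List (List ℕ) := [[], [1], [1, 4, 3, 4, 5, 2, 3, 1, 4, 3, 2, 5, 4, 3, 4, 3, 2, 5, 4, 3, 4, 5, 2, 4, 3, 6, 7, 2, 3, 8, 4, 3, 5, 7, 2, 1, 4, 3, 4, 5], [5, 4, 3, 4, 1, 2, 8, 5, 3, 4, 7, 3, 2, 8, 6, 3, 4, 2, 5, 4, 3, 4, 5, 2, 3, 4, 3, 4, 5, 2, 3, 4, 1, 3, 2, 5, 4, 3, 4, 1], [5, 4, 3, 4, 5, 4, 6, 5, 4, 2, 3, 1, 4, 3, 2, 5, 4, 3, 4, 3, 2, 5, 4, 3, 4, 2, 3, 5, 4, 2, 6, 7, 2, 3, 4, 8, 5, 4, 3, 2, 4, 3, 2, 4], [4, 2, 3, 4, 2,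 3, 4, 5, 7, 4, 3, 2, 8, 6, 2, 4, 5, 3, 2, 4, 3, 4, 5, 2, 3, 4, 3, 4, 5, 2, 3, 4, 1, 3, 2, 4, 5, 6, 4, 5, 4, 3, 4, 5]]

theorem satM : Sat (wt ON.gm WM) M11s.Rm := ONM.sat_of_tr (by decide) (by decide +kernel)

theorem subM : IsSimpleGroup (gen (wt ON.gm WM) 5) ∧ Nat.card (gen (wt ON.gm WM) 5) = 7920 :=
  M11sM.simple_card satM (by
    rw [← ev_single (wt ON.gm WM) 1]
    exact ONM.ne_one_of_tr (q := 2) (by decide) (by norm_num) (by decide +kernel))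

end Cfsg.Agent.H44.ONJ
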