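import Mathlib
import Cfsg.Agent.H45.OnDefs

/-! The product of two commuting involutions of components lies in a component. -/

set_option autoImplicit false

namespace Cfsg.Agent.H44.OnR2

open Subgroup Cfsg.Agent.H45.On

universe u v

theorem two_of_sq {G : Type u} [Group G] {P : Subgroup G} (h : ∀ w ∈ P, w * w = 1) : IsPGroup 2 P :=
  fun w => ⟨1, Subtype.ext (by rw [pow_one, pow_two]; exact h w w.2)⟩

theorem sq_closure {G : Type u} [Group G] {s t : G} (hs : s * s = 1) (ht : t * t = 1)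
    (c : s * t = t * s) : ∀ w ∈ closure ({s, t} : Set G), w * w = 1 := by
  have c2 : closure ({s, t} : Set G) ≤ centralizer (closure ({s, t} : Set G) : Set G) := by
    rw [centralizer_closure, closure_le]
    rintro _ (rfl | rfl) _ (rfl | rfl)
    exacts [rfl, c.symm, c, rfl]
  intro w hw
  induction hw using closure_induction with
  | mem w hw => rcases hw with rfl | rfl; exacts [hs, ht]
  | one => exact one_mul 1
  | mul a b ha hb h1 h2 =>
    rw [mul_assoc, ← mul_assoc b, c2 ha b hb, mul_assoc, h2, mul_one, h1]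
  | inv a _ h => rw [← mul_inv_rev, h, inv_one]

theorem sq_zp {G : Type u} [Group G] {s : G} (hs : s * s = 1) : ∀ w ∈ zpowers s, w * w = 1 := by
  rintro _ ⟨k, rfl⟩
  change s ^ k * s ^ k = 1
  rw [← (Commute.refl s).mul_zpow, hs, one_zpow]

theorem r2 (sim : SimStmt.{u}) (grow : GrowStmt.{u}) (sy : SyStmt.{u}) : R2Stmt.{u, v} := by
  intro G Ω _ _ _ _ S T r1 x y M M' a b hM hM' xy ha hb ia ib ab
  have cb : cj b M = M := (T.cn hM ha ia.2 ab.symm).1
  set Y := centralizer ({b} : Set G)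
  have mY : ∀ {c}, c ∈ Y ↔ c * b = b * c := mem_centralizer_singleton_iff
  have le : M ⊓ Y ≤ St M y := fun c hc => ⟨hc.1, (T.cn hM' hb ib.2 (mY.1 hc.2)).2⟩
  have n4 := r1 x y M hM xy
  obtain ⟨Q, aQ, hQ⟩ := (sy (M ⊓ Y) (zpowers a) (zpowers_le.2 ⟨ha, mY.2 ab⟩)
    (two_of_sq (sq_zp ia.1))).1
  replace aQ : a ∈ Q := aQ (mem_zpowers a)
  have ev : Even ((M ⊓ Y).relIndex M) := by
    by_contra h
    have hQ' : Sy Q M := ⟨hQ.1.trans inf_le_left, hQ.2.1, by
      rw [← relIndex_mul_relIndex Q (M ⊓ Y) M hQ.1 inf_le_left]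
      exact hQ.2.2.mul (Nat.not_even_iff_odd.1 h)⟩
    obtain ⟨s, hs, t, ht, is, it, st, c⟩ := (sim M (S.simple hM) (S.nab hM)).1
    obtain ⟨g, -, hg⟩ := (sy M (closure {s, t}) ((closure_le _).2 (by
      rintro _ (rfl | rfl); exacts [hs, ht])) (two_of_sq (sq_closure is.1 it.1 c))).2.2 Q hQ'
    have iv : ∀ {w : G}, Inv w → Inv (g * w * g⁻¹) := fun {w} h =>
      ⟨by rw [show g * w * g⁻¹ * (g * w * g⁻¹) = g * (w * w) * g⁻¹ by group, h.1]; group,
        fun e => h.2 (conj_eq_one_iff.1 e)⟩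
    refine n4 ⟨_, le (hQ.1 (hg (cj_mem (subset_closure (Or.inl rfl))))), _,
      le (hQ.1 (hg (cj_mem (subset_closure (Or.inr rfl))))), iv is, iv it, fun e => st (by simpa using e),
      ?_⟩
    exact ((show Commute s t from c).map (MulAut.conj g)).eq
  have BY : zpowers b ≤ Y := zpowers_le.2 (mY.2 rfl)
  obtain ⟨g, -, gY, gQ, he⟩ := grow M Y (zpowers b) Q (two_of_sq (sq_zp ib.1)) BY
    (fun c hc => by
      have : zpowers b ≤ normalizer (M : Set G) := zpowers_le.2 (mem_normalizer_iff''.2 fun n => by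
        rw [← mem_cj, cb])
      ext n
      rw [mem_cj]
      exact (mem_normalizer_iff''.1 (this hc) n).symm)
    (fun c hc m hm => by
      obtain ⟨k, rfl⟩ := hc
      exact ((show Commute m b from mY.1 hm.2).zpow_right k).symm.eq) hQ ev
  have eQ := he b (mem_zpowers b)
  obtain ⟨e, e0⟩ : ∃ e, e = b⁻¹ * (g * b * g⁻¹) := ⟨_, rfl⟩
  rw [← e0] at eQ
  have e1 : g * b * g⁻¹ = b * e := by rw [e0]; group
  have eb : Commute e b := mY.1 (hQ.1 eQ).2
  have e2 : e * e = 1 := by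
    have h : b * e * (b * e) = 1 := by
      rw [← e1, show g * b * g⁻¹ * (g * b * g⁻¹) = g * (b * b) * g⁻¹ by group, ib.1]; group
    rwa [mul_assoc, ← mul_assoc e, eb.eq, ← mul_assoc, ← mul_assoc, ib.1, one_mul] at h
  have ae : a * e = e * a := by
    have h : g⁻¹ * a * g ∈ Q ⊔ zpowers b := by rw [← mem_cj, gQ]; exact mem_sup_left aQ
    have h1 := mY.1 (sup_le (hQ.1.trans inf_le_right) BY h)
    have h2 : a * (g * b * g⁻¹) = g * b * g⁻¹ * a := by
      calc _ = g * (g⁻¹ * a * g * b) * g⁻¹ := by group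
        _ = _ := by rw [h1]; group
    rw [e1, ← mul_assoc, ab, mul_assoc, mul_assoc] at h2
    exact mul_left_cancel h2
  have ea : a = e := by
    by_contra h
    refine n4 ⟨a, le (hQ.1 aQ), e, le (hQ.1 eQ), ia, ⟨e2, fun h1 => gY (mY.2 ?_)⟩, h, ae⟩
    rw [h1, mul_one] at e1
    exact mul_inv_eq_iff_eq_mul.1 e1
  refine ⟨_, _, S.conj g hM', ?_⟩
  rw [ab, ea, ← e1]
  exact cj_mem hb

end Cfsg.Agent.H44.OnR2
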