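import Cfsg.Agent.H87.PSDefs

/-! Maximal blocks of a point stabilizer of a doubly transitive group. -/

set_option autoImplicit false
set_option linter.unusedSectionVars false

namespace Cfsg.Agent.H44.PsI

open Equiv MulAction Cfsg.Agent.H87.PS
open scoped Pointwise

universe u

variable {α : Type u} [Fintype α] [DecidableEq α] (X : Subgroup (Perm α)) (a : α)

/-- a proper block of the stabilizer -/
def PB (B : Set α) : Prop := (∀ b ∈ B, b ≠ a) ∧
  (∀ g ∈ X, g a = a → ∀ b ∈ B, g b ∈ B → ∀ c ∈ B, g c ∈ B) ∧ ∃ c, c ≠ a ∧ c ∉ B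

/-- the family of partitions -/
def EE (B : Set α) (a' b c : α) : Prop := ∃ g ∈ X, g a' = a ∧ g b ∈ B ∧ g c ∈ B

variable {X a} {B : Set α}

theorem two (h : IsMultiplyPretransitive X α 2) {b c d e : α} (h1 : b ≠ c) (h2 : d ≠ e) :
    ∃ g ∈ X, g b = d ∧ g c = e := by
  obtain ⟨g, hg⟩ := is_two_pretransitive_iff.1 h h1 h2
  exact ⟨g, g.2, hg⟩

theorem exPB (h : IsMultiplyPretransitive X α 2)
    (hn : ¬ IsPreprimitive (stabilizer X a) (SubMulAction.ofStabilizer X a)) :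
    ∃ B, PB X a B ∧ 2 ≤ B.ncard := by
  have tr : IsPretransitive (stabilizer X a) (SubMulAction.ofStabilizer X a) := ⟨fun x y => by
    obtain ⟨g, hg, e1, e2⟩ := two h (Ne.symm x.2) (Ne.symm y.2)
    exact ⟨⟨⟨g, hg⟩, e1⟩, Subtype.ext e2⟩⟩
  obtain ⟨B, hB, nt⟩ : ∃ B : Set (SubMulAction.ofStabilizer X a),
      IsBlock (stabilizer X a) B ∧ ¬ IsTrivialBlock B := by
    by_contra hc
    push Not at hc
    exact hn ⟨fun {B} hB => hc B hB⟩
  rw [IsTrivialBlock, not_or, Set.not_subsingleton_iff] at nt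
  refine ⟨Subtype.val '' B, ⟨?_, ?_, ?_⟩, ?_⟩
  · rintro _ ⟨b, -, rfl⟩; exact b.2
  · rintro g hg e _ ⟨b, hb, rfl⟩ ⟨b', hb', e'⟩ _ ⟨c, hc, rfl⟩
    let g' : stabilizer X a := ⟨⟨g, hg⟩, e⟩
    have := hB.smul_eq_of_mem hb (show g' • b ∈ B from (Subtype.ext e' : b' = g' • b) ▸ hb')
    exact ⟨g' • c, this ▸ Set.smul_mem_smul_set hc, rfl⟩
  · obtain ⟨c, hc⟩ := (Set.ne_univ_iff_exists_notMem _).1 nt.2
    exact ⟨c, c.2, fun ⟨d, hd, e⟩ => hc (Subtype.ext e ▸ hd)⟩
  · rw [Set.ncard_image_of_injective _ Subtype.val_injective]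
    exact (Set.one_lt_ncard_iff_nontrivial.2 nt.1)

theorem Einv {g : Perm α} (hg : g ∈ X) {a' b c : α} (e : EE X a B a' b c) :
    EE X a B (g a') (g b) (g c) := by
  obtain ⟨k, hk, e1, e2, e3⟩ := e
  exact ⟨k * g⁻¹, mul_mem hk (inv_mem hg), by simpa using e1, by simpa using e2, by simpa using e3⟩

theorem Ene (p : PB X a B) {a' b c : α} (e : EE X a B a' b c) : b ≠ a' ∧ c ≠ a' := by
  obtain ⟨k, -, e1, e2, e3⟩ := e
  exact ⟨fun h => p.1 _ e2 (h ▸ e1), fun h => p.1 _ e3 (h ▸ e1)⟩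

theorem Eiff (p : PB X a B) {g : Perm α} (hg : g ∈ X) {a' b : α} (e1 : g a' = a) (e2 : g b ∈ B)
    (c : α) : EE X a B a' b c ↔ g c ∈ B := by
  refine ⟨fun ⟨k, hk, f1, f2, f3⟩ => ?_, fun h => ⟨g, hg, e1, e2, h⟩⟩
  have := p.2.1 (g * k⁻¹) (mul_mem hg (inv_mem hk)) (by rw [← f1]; simpa using e1.trans f1.symm)
    _ f2 (by simpa using e2) _ f3
  simpa using this

theorem Esize (p : PB X a B) {a' b : α} (e : EE X a B a' b b) :
    {c | EE X a B a' b c}.ncard = B.ncard := by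
  obtain ⟨g, hg, e1, e2, -⟩ := e
  rw [show {c | EE X a B a' b c} = g ⁻¹' B from Set.ext (Eiff p hg e1 e2),
    Set.ncard_preimage_of_injective_subset_range g.injective (by simp)]

theorem Erefl (h : IsMultiplyPretransitive X α 2) (p : PB X a B) (s2 : 2 ≤ B.ncard) {a' b : α}
    (hb : b ≠ a') : EE X a B a' b b := by
  obtain ⟨b0, h0⟩ := Set.nonempty_of_ncard_ne_zero (show B.ncard ≠ 0 by omega)
  obtain ⟨g, hg, e1, e2⟩ := two h hb.symm (p.1 b0 h0).symm
  exact ⟨g, hg, e1, e2 ▸ h0, e2 ▸ h0⟩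

theorem Esymm {a' b c : α} (e : EE X a B a' b c) : EE X a B a' c b :=
  let ⟨g, hg, e1, e2, e3⟩ := e; ⟨g, hg, e1, e3, e2⟩

theorem Etrans (p : PB X a B) {a' b c d : α} (e : EE X a B a' b c) (f : EE X a B a' c d) :
    EE X a B a' b d :=
  let ⟨g, hg, e1, e2, e3⟩ := e; ⟨g, hg, e1, e2, (Eiff p hg e1 e3 d).1 f⟩

theorem Ecnt (h : IsMultiplyPretransitive X α 2) (p : PB X a B) (s2 : 2 ≤ B.ncard) {b c : α}
    (hbc : b ≠ c) : {a' | EE X a B a' b c}.ncard = B.ncard - 1 := by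
  classical
  have k : ∀ d, b ≠ d → {a' | EE X a B a' b d}.ncard = {a' | EE X a B a' b c}.ncard := fun d hd => by
    obtain ⟨g, hg, e1, e2⟩ := two h hd hbc
    rw [← Set.ncard_preimage_of_injective_subset_range (s := {a' | EE X a B a' b c}) g.injective
      (by simp)]
    congr 1
    ext a'
    refine ⟨fun e => ?_, fun e => ?_⟩
    · have := Einv hg e
      rwa [e1, e2] at this
    · have := Einv (inv_mem hg) e
      rw [← e1, ← e2] at this
      simpa using this
  have := Finset.sum_card_bipartiteAbove_eq_sum_card_bipartiteBelow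
    (s := Finset.univ.erase b) (t := Finset.univ.erase b) fun a' d => EE X a B a' b d
  rw [Finset.sum_const_nat (m := B.ncard - 1), Finset.sum_const_nat
    (m := {a' | EE X a B a' b c}.ncard)] at this
  · refine (Nat.eq_of_mul_eq_mul_left ?_ this).symm
    exact Finset.card_pos.2 ⟨c, by simp [hbc.symm]⟩
  · intro d hd
    rw [← k d (Finset.ne_of_mem_erase hd).symm, ← Set.ncard_coe_finset]
    congr 1
    ext a'
    simp only [Finset.coe_bipartiteBelow, Finset.mem_erase, Finset.mem_univ, and_true,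
      Set.mem_ofPred_eq]
    exact ⟨fun e => e.2, fun e => ⟨(Ene p e).1.symm, e⟩⟩
  · intro a' ha
    have r := Erefl h p s2 (Finset.ne_of_mem_erase ha).symm
    rw [← Esize p r, ← Set.ncard_sdiff_singleton_of_mem (show b ∈ {c | EE X a B a' b c} from r),
      ← Set.ncard_coe_finset]
    congr 1
    ext d
    simp [and_comm]

/-- the classes -/
def st (h : IsMultiplyPretransitive X α 2) (p : PB X a B) (s2 : 2 ≤ B.ncard) :
    Setoid {b // b ≠ a} :=
  ⟨fun b c => EE X a B a b c, fun b => Erefl h p s2 b.2, Esymm, Etrans p⟩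

theorem fa (g : fixS X {a}) : (g : Perm α) a = a := g.2.2 a (by simp)

theorem fne (g : fixS X {a}) (b : {b // b ≠ a}) : (g : Perm α) b ≠ a := fun e =>
  b.2 ((g : Perm α).injective (e.trans (fa g).symm))

/-- the action on the classes -/
@[reducible] def act (h : IsMultiplyPretransitive X α 2) (p : PB X a B) (s2 : 2 ≤ B.ncard) :
    MulAction (fixS X {a}) (Quotient (st h p s2)) where
  smul g := Quotient.map (fun b => ⟨(g : Perm α) b, fne g b⟩) fun b c e => by
    have := Einv g.2.1 e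
    rwa [fa g] at this
  one_smul q := Quotient.inductionOn q fun _ => rfl
  mul_smul g k q := Quotient.inductionOn q fun _ => rfl

theorem imp0 : Imp0Stmt.{u} := by
  classical
  intro α _ _ X a ih h hn _
  obtain ⟨B, ⟨p, s2⟩, mx⟩ := Set.exists_max_image {B | PB X a B ∧ 2 ≤ B.ncard} Set.ncard
    (Set.toFinite _) (exPB h hn)
  let β := Quotient (st h p s2)
  have : Fintype β := Fintype.ofFinite β
  let _ := act h p s2
  let φ := MulAction.toPermHom (fixS X {a}) β
  have hφ : ∀ g (b : {b // b ≠ a}), φ g (Quotient.mk _ b) = Quotient.mk _ ⟨_, fne g b⟩ :=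
    fun _ _ => rfl
  have hc : Fintype.card α = B.ncard * Fintype.card β + 1 := by
    have e1 := Finset.card_eq_sum_card_fiberwise (s := Finset.univ) (t := Finset.univ)
      (f := (Quotient.mk _ : {b // b ≠ a} → β)) (by simp)
    rw [Finset.sum_const_nat (m := B.ncard), Finset.card_univ, Finset.card_univ,
      Fintype.card_subtype_compl, Fintype.card_subtype_eq] at e1
    · have : 0 < Fintype.card α := Fintype.card_pos_iff.2 ⟨a⟩
      rw [mul_comm]
      exact (Nat.sub_add_cancel this).symm.trans (congrArg (· + 1) e1)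
    · intro q _
      obtain ⟨b, rfl⟩ := Quotient.exists_rep q
      rw [← Esize p (Erefl h p s2 b.2), ← Set.ncard_coe_finset,
        ← Set.ncard_image_of_injective _ Subtype.val_injective]
      congr 1
      ext c
      simp only [Finset.coe_filter, Finset.mem_univ, true_and, Set.mem_image, Set.mem_ofPred_eq]
      exact ⟨fun ⟨d, e, f⟩ => f ▸ Esymm (Quotient.exact e),
        fun e => ⟨⟨c, (Ene p e).2⟩, Quotient.sound (Esymm e), rfl⟩⟩
  obtain ⟨b0, h0⟩ := Set.nonempty_of_ncard_ne_zero (show B.ncard ≠ 0 by omega)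
  have v2 : 2 ≤ Fintype.card β := by
    obtain ⟨c, c1, c2⟩ := p.2.2
    exact Fintype.one_lt_card_iff.2 ⟨Quotient.mk _ ⟨b0, p.1 _ h0⟩, Quotient.mk _ ⟨c, c1⟩, fun e =>
      c2 ((Eiff p (one_mem X) rfl h0 c).1 (Quotient.exact e))⟩
  have bl : Blk X B.ncard (Fintype.card β) (EE X a B) := ⟨s2, v2, hc, fun g hg _ _ _ => Einv hg,
    fun _ _ _ => Ene p, fun _ _ => Erefl h p s2, fun _ _ _ => Esymm, fun _ _ _ _ => Etrans p,
    fun _ _ hb => Esize p (Erefl h p s2 hb), fun _ _ => Ecnt h p s2⟩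
  have hk : (ker bl a).relIndex (fixS X {a}) = Nat.card φ.range := by
    rw [← Subgroup.index_ker, Subgroup.relIndex]
    congr 1
    ext g
    rw [Subgroup.mem_subgroupOf, mem_ker, MonoidHom.mem_ker]
    refine ⟨fun e => Equiv.ext fun q => Quotient.inductionOn q fun b =>
      Quotient.sound (Esymm (e.2.2 b b.2)), fun e => ⟨g.2.1, fa g, fun b hb => ?_⟩⟩
    have := hφ g ⟨b, hb⟩
    rw [e] at this
    exact Quotient.exact this
  refine ⟨_, _, _, bl, ?_, ?_⟩
  · rw [hk, ← Fintype.card_perm, ← Nat.card_eq_fintype_card]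
    exact Subgroup.card_le_card_group _
  have tr : IsPretransitive φ.range β := ⟨fun x y => by
    obtain ⟨b, rfl⟩ := Quotient.exists_rep x
    obtain ⟨c, rfl⟩ := Quotient.exists_rep y
    obtain ⟨g, hg, e1, e2⟩ := two h b.2.symm c.2.symm
    exact ⟨⟨_, ⟨g, hg, by simpa using e1⟩, rfl⟩, congrArg (Quotient.mk _) (Subtype.ext e2)⟩⟩
  have pr : IsPreprimitive φ.range β := ⟨fun {C} hC => by
    by_contra nt
    rw [IsTrivialBlock, not_or, Set.not_subsingleton_iff] at nt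
    obtain ⟨x, hx, y, hy, xy⟩ := nt.1
    obtain ⟨b, rfl⟩ := Quotient.exists_rep x
    obtain ⟨c, rfl⟩ := Quotient.exists_rep y
    have lt : {d | EE X a B a b d} ⊂ {d | ∃ hd : d ≠ a, Quotient.mk _ ⟨d, hd⟩ ∈ C} :=
      ⟨fun d e => ⟨(Ene p e).2, (Quotient.sound e : Quotient.mk (st h p s2) b =
        Quotient.mk _ ⟨d, (Ene p e).2⟩) ▸ hx⟩, fun e => xy (Quotient.sound (e ⟨c.2, hy⟩))⟩
    have l1 := Set.ncard_lt_ncard lt (Set.toFinite _)
    rw [Esize p (Erefl h p s2 b.2)] at l1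
    refine absurd (mx _ ⟨⟨fun d hd => hd.1, ?_, ?_⟩, by omega⟩) (not_le.2 l1)
    · rintro g hg e d ⟨d1, d2⟩ ⟨_, d3⟩ f ⟨f1, f2⟩
      let g' : fixS X {a} := ⟨g, hg, by simpa using e⟩
      have := hC.smul_eq_of_mem (g := ⟨φ g', g', rfl⟩) d2 d3
      exact ⟨fne g' ⟨f, f1⟩, this ▸ Set.smul_mem_smul_set f2⟩
    · obtain ⟨z, hz⟩ := (Set.ne_univ_iff_exists_notMem _).1 nt.2
      obtain ⟨d, rfl⟩ := Quotient.exists_rep z
      exact ⟨d, d.2, fun e => hz e.2⟩⟩
  by_cases al : alternatingGroup β ≤ φ.range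
  · refine Or.inr fun j hj b c hb hc' ib ic => ?_
    have m1 := alternatingGroup.isMultiplyPretransitive β
    have m2 : IsMultiplyPretransitive (alternatingGroup β) β j :=
      isMultiplyPretransitive_of_le (n := Nat.card β - 2)
        (by rw [Nat.card_eq_fintype_card]; omega) (by omega)
    obtain ⟨σ, hσ⟩ := m2.exists_smul_eq
      ⟨fun i => Quotient.mk _ ⟨b i, hb i⟩, fun i k e => ib i k (Quotient.exact e)⟩
      ⟨fun i => Quotient.mk _ ⟨c i, hc' i⟩, fun i k e => ic i k (Quotient.exact e)⟩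
    obtain ⟨g, hg⟩ := al σ.2
    refine ⟨g, g.2.1, fa g, fun i => ?_⟩
    have : (σ : Perm β) (Quotient.mk _ ⟨b i, hb i⟩) = Quotient.mk _ ⟨c i, hc' i⟩ :=
      DFunLike.congr_fun hσ i
    rw [← hg, hφ] at this
    exact Quotient.exact this
  · exact Or.inl (hk ▸ ih β φ.range (by nlinarith) pr al)

end Cfsg.Agent.H44.PsI
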