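import Mathlib

/-!
# Counting Sylow 5-subgroups in a group of order 604800
-/

set_option autoImplicit false

namespace Cfsg.Agent.H44.SzA

open MulAction

/-- A free action on an invariant set. -/
theorem card_dvd_ncard_of_free {A Z : Type*} [Group A] [MulAction A Z] (S : Set Z)
    (hS : ∀ (a : A), ∀ z ∈ S, a • z ∈ S) (hf : ∀ (a : A), ∀ z ∈ S, a • z = z → a = 1) :
    Nat.card A ∣ S.ncard := by
  let T : SubMulAction A Z := ⟨S, fun a z hz => hS a z hz⟩
  have h : ∀ b : T, stabilizer A b = ⊥ := fun b => by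
    rw [eq_bot_iff]
    intro a ha
    exact hf a b b.2 (congrArg Subtype.val (mem_stabilizer_iff.1 ha))
  have e := Nat.card_congr (selfEquivOrbitsQuotientProd h)
  rw [Nat.card_prod] at e
  change Nat.card S = _ at e
  rw [← Nat.card_coe_set_eq, e]
  exact Dvd.intro_left _ rfl

variable {Γ : Type*} [Group Γ] [Finite Γ]

instance fact5 : Fact (Nat.Prime 5) := ⟨by norm_num⟩

/-- The Sylow 5-subgroups inside a subgroup of order dividing 300. -/
theorem ncard_le (P : Sylow 5 Γ) (hP : Nat.card P = 25) {C : Subgroup Γ} (hle : (P : Subgroup Γ) ≤ C)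
    (hC : Nat.card C ∣ 300) :
    {Q : Sylow 5 Γ | (Q : Subgroup Γ) ≤ C}.ncard ≤ if 150 ≤ Nat.card C then 6 else 1 := by
  classical
  have h1 : {Q : Sylow 5 Γ | (Q : Subgroup Γ) ≤ C}.ncard ≤ Nat.card (Sylow 5 C) := by
    rw [← Nat.card_coe_set_eq]
    exact Nat.card_le_card_of_injective
      (fun Q : {Q : Sylow 5 Γ | (Q : Subgroup Γ) ≤ C} => Q.1.subtype Q.2)
      fun Q Q' h => Subtype.ext (Sylow.subtype_injective h)
  have h2 := card_sylow_modEq_one 5 C
  have h3 := (P.subtype hle).card_dvd_index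
  have h4 := ((P.subtype hle : Sylow 5 C) : Subgroup C).index_mul_card
  have h5 : Nat.card ((P.subtype hle : Sylow 5 C) : Subgroup C) = 25 := by
    rw [Sylow.coe_subtype, ← hP]
    exact Nat.card_congr (Subgroup.subgroupOfEquivOfLe hle).toEquiv
  rw [h5] at h4
  generalize ((P.subtype hle : Sylow 5 C) : Subgroup C).index = m at h3 h4
  generalize Nat.card (Sylow 5 C) = s at h1 h2 h3
  rw [← h4] at hC ⊢
  have h6 : m ∣ 12 := by
    have : m * 25 ∣ 12 * 25 := hC
    exact Nat.dvd_of_mul_dvd_mul_right (by norm_num) this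
  have h7 : m ≤ 12 := Nat.le_of_dvd (by norm_num) h6
  have h0 : 0 < m := Nat.pos_of_dvd_of_pos h6 (by norm_num)
  have h8 : s ≤ m := Nat.le_of_dvd h0 h3
  have h9 : s ∣ 12 := h3.trans h6
  unfold Nat.ModEq at h2
  refine h1.trans ?_
  have : s = 1 ∨ s = 6 := by
    have : s ≤ 12 := h8.trans h7
    interval_cases s <;> omega
  split_ifs with h <;> omega

theorem three_le (hΓ : Nat.card Γ = 604800) (P : Subgroup Γ) (hP : Nat.card P = 25)
    (Y : Fin 6 → Γ) (hY : ∀ i, Y i ∈ P)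
    (hz : ∀ x ∈ P, x ≠ 1 → ∃ i, Y i ∈ Subgroup.zpowers x)
    (hC : ∀ i, Nat.card (Subgroup.centralizer {Y i}) ∣ 300)
    (hN : Nat.card (Subgroup.normalizer (P : Set Γ)) ∣ 300) :
    3 ≤ {i | 150 ≤ Nat.card (Subgroup.centralizer {Y i})}.ncard := by
  classical
  have hf : Nat.factorization 604800 5 = 2 := by
    rw [show (604800 : ℕ) = 5 ^ 2 * 24192 by norm_num,
      Nat.factorization_mul (by norm_num) (by norm_num), Finsupp.add_apply,
      Nat.Prime.factorization_pow (by norm_num), Nat.factorization_eq_zero_of_not_dvd (by norm_num)]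
    simp
  let P' : Sylow 5 Γ := Sylow.ofCard P (by rw [hΓ, hf, hP]; norm_num)
  have hP' : (P' : Subgroup Γ) = P := rfl
  have hcard : ∀ Q : Sylow 5 Γ, Nat.card Q = 5 ^ 2 := fun Q => by
    rw [Q.card_eq_multiplicity, hΓ, hf]
  have hcomm : ∀ Q : Sylow 5 Γ, ∀ x ∈ (Q : Subgroup Γ), ∀ y ∈ Subgroup.zpowers x,
      (Q : Subgroup Γ) ≤ Subgroup.centralizer {y} := fun Q x hx y hy z hz => by
    rw [Subgroup.mem_centralizer_singleton_iff]
    have := IsPGroup.isMulCommutative_of_card_eq_prime_sq (p := 5) (hcard Q)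
    exact congrArg Subtype.val (this.is_comm.comm (⟨z, hz⟩ : Q)
      ⟨y, (Subgroup.zpowers_le_of_mem hx) hy⟩)
  set I := {i | 150 ≤ Nat.card (Subgroup.centralizer {Y i})} with hI
  let X : Set (Sylow 5 Γ) := {Q | ∃ x ∈ P, x ≠ 1 ∧ x ∈ (Q : Subgroup Γ)}
  have h1 : 25 ∣ Xᶜ.ncard := by
    rw [← hP]
    refine card_dvd_ncard_of_free _ (fun a Q hQ => ?_) fun a Q hQ h => ?_
    · rintro ⟨x, hx, hx1, hxQ⟩
      refine hQ ⟨(a : Γ)⁻¹ * x * a, P.mul_mem (P.mul_mem (P.inv_mem a.2) hx) a.2, fun h => hx1 ?_, ?_⟩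
      · have : x = a * ((a : Γ)⁻¹ * x * a) * (a : Γ)⁻¹ := by group
        rw [this, h]; simp
      · rw [Subgroup.smul_def, Sylow.coe_subgroup_smul,
          Subgroup.mem_pointwise_smul_iff_inv_smul_mem] at hxQ
        simpa using hxQ
    · by_contra ha
      refine hQ ⟨a, a.2, fun e => ha (Subtype.ext e), ?_⟩
      have h2 : (a : Γ) ∈ Subgroup.normalizer (Q : Set Γ) := Sylow.smul_eq_iff_mem_normalizer.1 h
      have h3 := (P'.isPGroup').inf_normalizer_sylow Q
      have : (a : Γ) ∈ (P' : Subgroup Γ) ⊓ Subgroup.normalizer (Q : Set Γ) := ⟨a.2, h2⟩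
      rw [h3] at this
      exact this.2
  let T : Fin 6 → Set (Sylow 5 Γ) := fun i =>
    {Q : Sylow 5 Γ | (Q : Subgroup Γ) ≤ Subgroup.centralizer {Y i}} \ {P'}
  have hPle : ∀ i, (P' : Subgroup Γ) ≤ Subgroup.centralizer {Y i} := fun i =>
    hcomm P' _ (hY i) _ (Subgroup.mem_zpowers _)
  have hT : ∀ i, (T i).ncard ≤ if i ∈ I then 5 else 0 := fun i => by
    have h2 := ncard_le P' hP (hPle i) (hC i)
    have h3 := Set.ncard_sdiff_singleton_of_mem
      (s := {Q : Sylow 5 Γ | (Q : Subgroup Γ) ≤ Subgroup.centralizer {Y i}}) (a := P') (hPle i)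
    simp only [T, h3, hI, Set.mem_ofPred_eq]
    split_ifs at h2 ⊢ <;> omega
  have hX : X ⊆ {P'} ∪ ⋃ i, T i := by
    rintro Q ⟨x, hx, hx1, hxQ⟩
    by_cases h : Q = P'
    · exact Or.inl h
    · obtain ⟨i, hi⟩ := hz x hx hx1
      exact Or.inr (Set.mem_iUnion.2 ⟨i, hcomm Q x hxQ _ hi, h⟩)
  have h4 : X.ncard ≤ 1 + 5 * I.ncard := by
    refine (Set.ncard_le_ncard hX (Set.toFinite _)).trans ((Set.ncard_union_le _ _).trans ?_)
    rw [Set.ncard_singleton]
    refine Nat.add_le_add_left ((Set.ncard_iUnion_le_of_fintype T).trans ?_) _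
    refine (Finset.sum_le_sum fun i _ => hT i).trans ?_
    rw [← Finset.sum_filter, Finset.sum_const, smul_eq_mul, mul_comm,
      Set.ncard_eq_toFinset_card' I]
    exact Nat.mul_le_mul_left _ (le_of_eq (by congr 1; ext; simp))
  have h5 := Set.ncard_add_ncard_compl X
  have h6 := P'.card_eq_index_normalizer
  have h7 := (Subgroup.normalizer (P' : Set Γ)).index_mul_card
  have h8 := card_sylow_modEq_one 5 Γ
  have h9 : Nat.card P ∣ Nat.card (Subgroup.normalizer (P : Set Γ)) :=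
    Subgroup.card_dvd_of_le Subgroup.le_normalizer
  rw [← h6, hΓ] at h7
  change _ * Nat.card (Subgroup.normalizer (P : Set Γ)) = _ at h7
  rw [hP] at h9
  obtain ⟨d, hd⟩ := h9
  rw [hd] at hN h7
  have h10 : d ∣ 12 := by
    have : 25 * d ∣ 25 * 12 := hN
    exact Nat.dvd_of_mul_dvd_mul_left (by norm_num) this
  have h11 : d ≤ 12 := Nat.le_of_dvd (by norm_num) h10
  unfold Nat.ModEq at h8
  interval_cases d <;> omega

section ambient

variable {Λ : Type*} [Group Λ] [Finite Λ]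

omit [Finite Λ] in
theorem card_dvd_of_map {J C : Subgroup Λ} {M : Subgroup J} (h : M.map J.subtype ≤ C) :
    Nat.card M ∣ Nat.card C := by
  rw [← Subgroup.card_map_of_injective (K := M) J.subtype_injective]
  exact Subgroup.card_dvd_of_le h

theorem three_le' {X J P : Subgroup Λ} (hJX : J ≤ X) (hJ : Nat.card J = 604800) (hPJ : P ≤ J)
    (hP : Nat.card P = 25) (Y : Fin 6 → Λ) (hY : ∀ i, Y i ∈ P)
    (hz : ∀ x ∈ P, x ≠ 1 → ∃ i, Y i ∈ Subgroup.zpowers x)
    (hC : ∀ i, Nat.card ↥(X ⊓ Subgroup.centralizer {Y i}) = 300)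
    (hN : Nat.card ↥(X ⊓ Subgroup.normalizer (P : Set Λ)) ∣ 300) (u : Fin 6 → Λ)
    (hu : ∀ i, u i ∈ X ⊓ Subgroup.centralizer {Y i}) (hu5 : ∀ i, u i ^ 5 = 1) :
    3 ≤ {i | u i ∈ J}.ncard := by
  have hle : ∀ i, (Subgroup.centralizer {(⟨Y i, hPJ (hY i)⟩ : J)}).map J.subtype ≤
      X ⊓ Subgroup.centralizer {Y i} := fun i => by
    rintro _ ⟨x, hx, rfl⟩
    refine ⟨hJX x.2, Subgroup.mem_centralizer_singleton_iff.2 ?_⟩
    exact congrArg Subtype.val (Subgroup.mem_centralizer_singleton_iff.1 hx)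
  refine (three_le hJ (P.subgroupOf J)
    ((Nat.card_congr (Subgroup.subgroupOfEquivOfLe hPJ).toEquiv).trans hP)
    (fun i => ⟨Y i, hPJ (hY i)⟩) hY (fun x hx h1 => ?_) (fun i => hC i ▸ card_dvd_of_map (hle i))
    ((card_dvd_of_map ?_).trans hN)).trans (Set.ncard_le_ncard (fun i hi => ?_) (Set.toFinite _))
  · obtain ⟨i, k, hk⟩ := hz x hx fun e => h1 (Subtype.ext e)
    exact ⟨i, k, Subtype.ext hk⟩
  · rintro _ ⟨x, hx, rfl⟩
    refine ⟨hJX x.2, Subgroup.mem_normalizer_iff.2 fun h => ⟨fun hh => ?_, fun hh => ?_⟩⟩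
    · exact (Subgroup.mem_normalizer_iff.1 hx ⟨h, hPJ hh⟩).1 hh
    · have h2 : h ∈ J := by
        have := J.mul_mem (J.mul_mem (J.inv_mem x.2) (hPJ hh)) x.2
        simpa [mul_assoc] using this
      exact (Subgroup.mem_normalizer_iff.1 hx ⟨h, h2⟩).2 hh
  · have h1 := (((Subgroup.centralizer {(⟨Y i, hPJ (hY i)⟩ : J)}).map J.subtype).subgroupOf
      (X ⊓ Subgroup.centralizer {Y i})).index_mul_card
    rw [hC i, Nat.card_congr (Subgroup.subgroupOfEquivOfLe (hle i)).toEquiv,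
      Subgroup.card_map_of_injective J.subtype_injective] at h1
    have h2 : 150 ≤ Nat.card (Subgroup.centralizer {(⟨Y i, hPJ (hY i)⟩ : J)}) := hi
    have h3 := Subgroup.pow_mem_of_relIndex_ne_zero_of_dvd
      (H := (Subgroup.centralizer {(⟨Y i, hPJ (hY i)⟩ : J)}).map J.subtype)
      (fun e => by rw [Subgroup.relIndex] at e; rw [e] at h1; omega) (hu i) (n := 6)
      fun m h0 hm => by
        rw [Subgroup.relIndex] at hm
        have : m ≤ 2 := by nlinarith
        interval_cases m <;> norm_num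
    rw [pow_succ, hu5, one_mul] at h3
    obtain ⟨x, -, hx⟩ := h3.1
    change u i ∈ J
    rw [← hx]
    exact x.2

theorem exists_conj {X J P : Subgroup Λ} (hX : Nat.card X = 251596800) (hJX : J ≤ X)
    (hJ : Nat.card J = 604800) (hPX : P ≤ X) (hP : Nat.card P = 25) :
    ∃ x ∈ X, P ≤ J.map (MulAut.conj x).toMonoidHom := by
  have hf : Nat.factorization 251596800 5 = 2 := by
    rw [show (251596800 : ℕ) = 5 ^ 2 * 10063872 by norm_num,
      Nat.factorization_mul (by norm_num) (by norm_num), Finsupp.add_apply,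
      Nat.Prime.factorization_pow (by norm_num), Nat.factorization_eq_zero_of_not_dvd (by norm_num)]
    simp
  obtain ⟨Q, hQ⟩ := Sylow.exists_subgroup_card_pow_prime (G := J) 5 (n := 2) (by rw [hJ]; norm_num)
  let P' : Sylow 5 X := Sylow.ofCard (P.subgroupOf X) (by
    rw [hX, hf, Nat.card_congr (Subgroup.subgroupOfEquivOfLe hPX).toEquiv, hP]; norm_num)
  let Q' : Sylow 5 X := Sylow.ofCard (Q.map (Subgroup.inclusion hJX)) (by
    rw [hX, hf, Subgroup.card_map_of_injective (Subgroup.inclusion_injective hJX), hQ])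
  obtain ⟨x, hx⟩ := exists_smul_eq X Q' P'
  refine ⟨x, x.2, fun p hp => ?_⟩
  have h1 : (⟨p, hPX hp⟩ : X) ∈ ((x • Q' : Sylow 5 X) : Subgroup X) := by rw [hx]; exact hp
  rw [Sylow.coe_subgroup_smul, Subgroup.mem_pointwise_smul_iff_inv_smul_mem] at h1
  obtain ⟨q, -, hq⟩ := h1
  refine ⟨q, q.2, ?_⟩
  have := congrArg Subtype.val hq
  simp at this
  simp [this, mul_assoc]

omit [Finite Λ] in
theorem mem_pair {y z : Λ} (hc : Commute y z) (hy : y ^ 5 = 1) (hz : z ^ 5 = 1) {x : Λ}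
    (hx : x ∈ Subgroup.closure {y, z}) : ∃ i < 5, ∃ j < 5, x = y ^ i * z ^ j := by
  have key : ∃ i j : ℕ, x = y ^ i * z ^ j := by
    induction hx using Subgroup.closure_induction with
    | mem x hx =>
      rcases hx with rfl | rfl
      exacts [⟨1, 0, by simp⟩, ⟨0, 1, by simp⟩]
    | one => exact ⟨0, 0, by simp⟩
    | mul a b _ _ ha hb =>
      obtain ⟨i, j, rfl⟩ := ha
      obtain ⟨k, l, rfl⟩ := hb
      exact ⟨i + k, j + l, by
        rw [pow_add, pow_add, (hc.symm.pow_pow j k).mul_mul_mul_comm]⟩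
    | inv a _ ha =>
      obtain ⟨i, j, rfl⟩ := ha
      refine ⟨4 * i, 4 * j, ?_⟩
      rw [inv_eq_iff_mul_eq_one, (hc.symm.pow_pow j (4 * i)).mul_mul_mul_comm, ← pow_add,
        ← pow_add, show i + 4 * i = 5 * i by ring, show j + 4 * j = 5 * j by ring, pow_mul, pow_mul,
        hy, hz]
      simp
  obtain ⟨i, j, rfl⟩ := key
  exact ⟨i % 5, Nat.mod_lt _ (by norm_num), j % 5, Nat.mod_lt _ (by norm_num), by
    rw [← pow_eq_pow_mod _ hy, ← pow_eq_pow_mod _ hz]⟩

/-- Generators of the six subgroups of order five. -/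
def six (y z : Λ) (i : Fin 6) : Λ :=
  y ^ (![1, 0, 1, 2, 3, 4] i : ℕ) * z ^ (![0, 1, 1, 1, 1, 1] i : ℕ)

omit [Finite Λ] in
theorem six_mem (y z : Λ) (i : Fin 6) : six y z i ∈ Subgroup.closure {y, z} :=
  mul_mem (pow_mem (Subgroup.subset_closure (by simp)) _)
    (pow_mem (Subgroup.subset_closure (by simp)) _)

omit [Finite Λ] in
theorem six_zpowers {y z : Λ} (hc : Commute y z) (hy : y ^ 5 = 1) (hz : z ^ 5 = 1) :
    ∀ x ∈ Subgroup.closure {y, z}, x ≠ 1 → ∃ i, six y z i ∈ Subgroup.zpowers x := by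
  intro x hx h1
  obtain ⟨i, hi, j, hj, rfl⟩ := mem_pair hc hy hz hx
  have key : ∀ i < 5, ∀ j < 5, (i = 0 ∧ j = 0) ∨ ∃ k : Fin 6, ∃ e < 5,
      i * e % 5 = ![1, 0, 1, 2, 3, 4] k ∧ j * e % 5 = ![0, 1, 1, 1, 1, 1] k := by decide
  rcases key i hi j hj with ⟨rfl, rfl⟩ | ⟨k, e, -, h2, h3⟩
  · simp at h1
  · refine ⟨k, e, ?_⟩
    simp only [zpow_natCast]
    rw [(hc.pow_pow i j).mul_pow, ← pow_mul, ← pow_mul, pow_eq_pow_mod _ hy, pow_eq_pow_mod _ hz,
      h2, h3, six]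

omit [Finite Λ] in
theorem card_pair_le {y z : Λ} (hc : Commute y z) (hy : y ^ 5 = 1) (hz : z ^ 5 = 1) :
    Nat.card (Subgroup.closure {y, z}) ≤ 25 := by
  let f : Fin 5 × Fin 5 → Subgroup.closure {y, z} := fun p =>
    ⟨y ^ (p.1 : ℕ) * z ^ (p.2 : ℕ), mul_mem (pow_mem (Subgroup.subset_closure (by simp)) _)
      (pow_mem (Subgroup.subset_closure (by simp)) _)⟩
  have hf : Function.Surjective f := fun x => by
    obtain ⟨i, hi, j, hj, e⟩ := mem_pair hc hy hz x.2
    exact ⟨(⟨i, hi⟩, ⟨j, hj⟩), Subtype.ext e.symm⟩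
  simpa using Nat.card_le_card_of_surjective f hf

end ambient

end Cfsg.Agent.H44.SzA
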