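import Mathlib
import Cfsg.Agent.H46.Cls
import Cfsg.Agent.H43.Aut
import Cfsg.Agent.H44.SzA

/-!
# Subgroups of order 15600 and their Sylow 5-subgroups
-/

set_option autoImplicit false

namespace Cfsg.Agent.H44.RfA

open MulAction Subgroup

section count

variable {J : Type*} [Group J] [Finite J]

theorem fact5 {n m : ℕ} (hn : n = 25 * m) (hm : ¬ 5 ∣ m) : 25 = 5 ^ Nat.factorization n 5 := by
  have h0 : m ≠ 0 := fun e => hm (e ▸ dvd_zero 5)
  rw [hn, show (25 : ℕ) = 5 ^ 2 by norm_num, Nat.factorization_mul (by norm_num) h0,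
    Finsupp.add_apply, Nat.Prime.factorization_pow (by norm_num),
    Nat.factorization_eq_zero_of_not_dvd hm]
  simp

theorem eq_of_card {L A B : Subgroup J} (hL : Nat.card L = 200) (hA : A ≤ L) (hB : B ≤ L)
    (cA : Nat.card A = 25) (cB : Nat.card B = 25) : A = B := by
  have := SzA.fact5
  have hf := fact5 (n := Nat.card L) (m := 8) hL (by norm_num)
  have e : ∀ {C : Subgroup J}, C ≤ L → Nat.card (C.subgroupOf L) = Nat.card C := fun h =>
    Nat.card_congr (subgroupOfEquivOfLe h).toEquiv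
  let P : Sylow 5 L := Sylow.ofCard (A.subgroupOf L) (by rw [e hA, cA, ← hf])
  let P' : Sylow 5 L := Sylow.ofCard (B.subgroupOf L) (by rw [e hB, cB, ← hf])
  have h1 := card_sylow_modEq_one 5 L
  have h2 := P.card_dvd_index
  have h3 := (P : Subgroup L).index_mul_card
  rw [hL, show Nat.card (P : Subgroup L) = 25 from (e hA).trans cA] at h3
  rw [show (P : Subgroup L).index = 8 by omega] at h2
  have h4 : Nat.card (Sylow 5 L) = 1 := by
    have := Nat.le_of_dvd (by norm_num) h2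
    unfold Nat.ModEq at h1
    generalize Nat.card (Sylow 5 L) = s at *
    interval_cases s <;> omega
  have h5 : A.subgroupOf L = B.subgroupOf L :=
    congrArg (fun X : Sylow 5 L => (X : Subgroup L)) ((Nat.card_eq_one_iff_unique.1 h4).1.elim P P')
  rwa [subgroupOf_inj, inf_eq_left.2 hA, inf_eq_left.2 hB] at h5

theorem count (hJ : Nat.card J = 15600) (Q : Subgroup J) (hQ : Nat.card Q = 25)
    (ti : ∀ R : Subgroup J, Nat.card R = 25 → ∀ q ∈ R, q ∈ Q → q ≠ 1 → R = Q) (hn : ¬ Q.Normal) :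
    ∃ R M : Subgroup J, Nat.card R = 25 ∧ R ≠ Q ∧ Nat.card M = 24 ∧
      M ≤ normalizer (Q : Set J) ⊓ normalizer (R : Set J) ∧ (Q ⊔ R).Normal := by
  classical
  have := SzA.fact5
  have hf := fact5 (n := Nat.card J) (m := 624) hJ (by norm_num)
  let P : Sylow 5 J := Sylow.ofCard Q (by rw [hQ, ← hf])
  have hP : (P : Subgroup J) = Q := rfl
  have hc : ∀ R : Sylow 5 J, Nat.card (R : Subgroup J) = 25 := fun R => by
    rw [R.card_eq_multiplicity, ← hf]
  have hs : ∀ {g : J} {R : Sylow 5 J}, g • P = P → R ≠ P → g • R ≠ P := fun h1 h2 h3 =>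
    h2 (smul_left_cancel _ (h3.trans h1.symm))
  have hq : ∀ a : Q, (a : J) • P = P := fun a =>
    Sylow.smul_eq_iff_mem_normalizer.2 (le_normalizer a.2)
  have hfree : ∀ (a : Q) (R : Sylow 5 J), R ≠ P → a • R = R → a = 1 := fun a R hR h => by
    by_contra ha
    have h2 : (a : J) ∈ normalizer (R : Set J) := Sylow.smul_eq_iff_mem_normalizer.1 h
    have h3 := (P.isPGroup').inf_normalizer_sylow R
    have h4 : (a : J) ∈ (P : Subgroup J) ⊓ normalizer (R : Set J) := ⟨a.2, h2⟩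
    rw [h3] at h4
    exact hR (Sylow.ext (ti _ (hc R) _ h4.2 a.2 fun e => ha (Subtype.ext e)))
  have h1 : 25 ∣ ({P}ᶜ : Set (Sylow 5 J)).ncard :=
    hQ ▸ SzA.card_dvd_ncard_of_free _ (fun a _ hR => hs (hq a) hR) hfree
  have h2 := Set.ncard_add_ncard_compl ({P} : Set (Sylow 5 J))
  rw [Set.ncard_singleton] at h2
  have h3 := P.card_dvd_index
  have h4 := Q.index_mul_card
  rw [hJ, hQ] at h4
  rw [hP, show Q.index = 624 by omega] at h3
  have h5 := P.card_eq_index_normalizer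
  have h6 : Nat.card (Sylow 5 J) ≠ 1 := fun e => by
    rw [e, eq_comm, index_eq_one] at h5
    exact hn (normalizer_eq_top_iff.1 h5)
  have h7 : ({P}ᶜ : Set (Sylow 5 J)).ncard = 25 := by
    obtain ⟨c, hc⟩ := h1
    have := Nat.le_of_dvd (by norm_num) h3
    rw [← h2, hc] at h3 h6 this
    have : c ≤ 25 := by omega
    interval_cases c <;> omega
  obtain ⟨R, hR⟩ : ({P}ᶜ : Set (Sylow 5 J)).Nonempty := Set.nonempty_of_ncard_ne_zero (by omega)
  have h8 : orbit Q R = {P}ᶜ := by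
    refine Set.eq_of_subset_of_ncard_le ?_ ?_ (Set.toFinite _)
    · rintro _ ⟨a, rfl⟩
      exact hs (hq a) hR
    · have h9 := (stabilizer Q R).index_mul_card
      rw [index_stabilizer, show stabilizer Q R = ⊥ from eq_bot_iff.2 fun a ha => hfree a R hR ha,
        card_bot, hQ] at h9
      omega
  have h9 : orbit (stabilizer J P) R = {P}ᶜ := by
    refine Set.Subset.antisymm ?_ ?_
    · rintro _ ⟨a, rfl⟩
      exact hs a.2 hR
    · rw [← h8]
      rintro _ ⟨a, rfl⟩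
      exact ⟨⟨a, hq a⟩, rfl⟩
  have h10 := (stabilizer (stabilizer J P) R).index_mul_card
  have h11 := (stabilizer J P).index_mul_card
  rw [index_stabilizer, h9, h7] at h10
  rw [index_stabilizer_of_transitive, hJ, ← h2, h7] at h11
  have hle : ∀ S : Sylow 5 J, (S : Subgroup J) ≤ Q ⊔ R := fun S => by
    by_cases e : S = P
    · rw [e]; exact le_sup_left
    · obtain ⟨a, rfl⟩ : S ∈ orbit Q R := h8 ▸ e
      intro x hx
      change x ∈ (((a : J) • R : Sylow 5 J) : Subgroup J) at hx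
      rw [Sylow.coe_subgroup_smul, mem_pointwise_smul_iff_inv_smul_mem] at hx
      have h12 : (a : J)⁻¹ * x * a ∈ (R : Subgroup J) := by simpa using hx
      have := mul_mem (mul_mem (mem_sup_left (T := (R : Subgroup J)) a.2) (mem_sup_right h12))
        (inv_mem (mem_sup_left a.2))
      simpa [mul_assoc] using this
  refine ⟨R, (stabilizer (stabilizer J P) R).map (stabilizer J P).subtype, hc R,
    fun e => hR (Sylow.ext e), ?_, ?_, ⟨fun x hx g => ?_⟩⟩
  · rw [card_map_of_injective (subtype_injective _)]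
    omega
  · rintro _ ⟨a, ha, rfl⟩
    exact ⟨Sylow.smul_eq_iff_mem_normalizer.1 a.2, Sylow.smul_eq_iff_mem_normalizer.1 ha⟩
  · have key : ∀ S : Sylow 5 J, (S : Subgroup J) ≤ (Q ⊔ R).comap (MulAut.conj g).toMonoidHom :=
      fun S y hy => hle (g • S) (by
        rw [Sylow.coe_subgroup_smul]
        exact smul_mem_pointwise_smul _ _ _ hy)
    exact sup_le (key P) (key R) hx

end count

variable {Γ Δ : Type*} [Group Γ] [MulAction Γ Δ]

/-- Conjugate of a subgroup. -/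
def cj (g : Γ) (Q : Subgroup Γ) : Subgroup Γ := Q.map (MulAut.conj g).toMonoidHom

theorem mem_cj {g x : Γ} {Q : Subgroup Γ} : x ∈ cj g Q ↔ g⁻¹ * x * g ∈ Q := by
  rw [cj, mem_map_equiv, MulAut.conj_symm_apply]

theorem conj_mem_cj {g x : Γ} {Q : Subgroup Γ} (h : x ∈ Q) : g * x * g⁻¹ ∈ cj g Q := ⟨x, h, rfl⟩

theorem card_cj (g : Γ) (Q : Subgroup Γ) : Nat.card (cj g Q) = Nat.card Q :=
  card_map_of_injective (MulAut.conj g).injective

theorem cj_cj (g h : Γ) (Q : Subgroup Γ) : cj g (cj h Q) = cj (g * h) Q := by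
  ext x
  simp [mem_cj, mul_assoc]

theorem cj_one (Q : Subgroup Γ) : cj 1 Q = Q := by
  ext x
  simp [mem_cj]

theorem cj_eq [Finite Γ] {g : Γ} {Q : Subgroup Γ} (h : ∀ x ∈ Q, g * x * g⁻¹ ∈ Q) : cj g Q = Q :=
  eq_of_le_of_card_ge (by rintro _ ⟨x, hx, rfl⟩; exact h x hx) (card_cj g Q).ge

theorem pow_smul {g : Γ} {S : Set Δ} (hS : S.Finite) (hg : ∀ p ∈ S, g • p ∈ S) {n m : ℕ}
    (hn : S.ncard ≤ n) (hm : ∀ k, 0 < k → k ≤ n → k ∣ m) {p : Δ} (hp : p ∈ S) :
    g ^ m ∈ stabilizer Γ p := by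
  have h1 : ∀ i : ℕ, g ^ i • p ∈ S := fun i => by
    induction i with
    | zero => simpa using hp
    | succ i ih => rw [pow_succ', mul_smul]; exact hg _ ih
  have key : ∀ i j : ℕ, i < j → j ≤ n → g ^ i • p = g ^ j • p → g ^ m ∈ stabilizer Γ p :=
    fun i j hij hj e => by
      obtain ⟨c, hc⟩ := hm (j - i) (by omega) (by omega)
      rw [hc, pow_mul]
      refine pow_mem (smul_left_cancel (g ^ i) ?_) _
      rw [← mul_smul, ← pow_add, e, show i + (j - i) = j by omega]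
  obtain ⟨i, hi, j, hj, hij, e⟩ := Set.exists_ne_map_eq_of_ncard_lt_of_maps_to
    (s := (Finset.range (n + 1) : Set ℕ)) (t := S) (f := fun i => g ^ i • p)
    (by rw [Set.ncard_coe_finset, Finset.card_range]; omega) (fun i _ => h1 i) hS
  simp only [Finset.coe_range, Set.mem_Iio] at hi hj
  rcases lt_or_gt_of_ne hij with h | h
  · exact key i j h (by omega) e
  · exact key j i h (by omega) e.symm

theorem fix_two {r : Γ} (h3 : r ^ 3 = 1) {S : Set Δ} (hS : S.Finite) (hg : ∀ p ∈ S, r • p ∈ S)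
    (hn : S.ncard ≤ 2) {p : Δ} (hp : p ∈ S) : r • p = p := by
  have h := pow_mem (pow_smul hS hg hn (m := 2)
    (fun k h0 hk => by interval_cases k <;> norm_num) hp) 2
  rwa [← pow_mul, show 2 * 2 = 3 + 1 from rfl, pow_succ, h3, one_mul] at h

/-- An element of prime order fixes a point of an invariant set of suitable size. -/
theorem exists_fix [Finite Γ] {r : Γ} {l : ℕ} (hl : l.Prime) (h : r ^ l = 1) {S : Set Δ}
    (hg : ∀ p ∈ S, r • p ∈ S) (hn : ¬ l ∣ S.ncard) : ∃ p ∈ S, r • p = p := by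
  have := Fact.mk hl
  have h1 : ∀ (i : ℕ), ∀ p ∈ S, r ^ i • p ∈ S := fun i p hp => by
    induction i with
    | zero => simpa using hp
    | succ i ih => rw [pow_succ', mul_smul]; exact hg _ ih
  let T : SubMulAction (zpowers r) Δ := ⟨S, fun a z hz => by
    obtain ⟨i, hi⟩ := (mem_powers_iff_mem_zpowers.2 a.2 : _)
    rw [Subgroup.smul_def, ← hi]
    exact h1 i z hz⟩
  have hP : IsPGroup l (zpowers r) := fun a => ⟨1, Subtype.ext (by
    obtain ⟨i, hi⟩ := mem_zpowers_iff.1 a.2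
    rw [pow_one, Subgroup.coe_pow, Subgroup.coe_one, ← hi, ← zpow_natCast, ← zpow_mul, mul_comm,
      zpow_mul, zpow_natCast, h, one_zpow])⟩
  obtain ⟨p, hp⟩ := hP.nonempty_fixed_point_of_prime_not_dvd_card T hn
  exact ⟨p, p.2, congrArg Subtype.val (hp ⟨r, mem_zpowers r⟩)⟩

/-- The local data at a Sylow 5-subgroup. -/
structure Dat (Q : Subgroup Γ) (F : Set Δ) (o d : Δ) (u : Γ) : Prop where
  cardQ : Nat.card Q = 25
  fixQ : ∀ q ∈ Q, q ≠ 1 → ∀ p, q • p = p ↔ p ∈ F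
  cardF : F.ncard = 4
  ho : o ∈ F
  hd : d ∈ F
  hod : o ≠ d
  cardL : Nat.card ↥(stabilizer Γ o ⊓ stabilizer Γ d) = 200
  uo : u • o = o
  ud : u • d = d
  ord : orderOf u = 8
  wF : ∀ p ∈ F, u ^ 4 • p = p

namespace Dat

variable [Finite Γ] {Q : Subgroup Γ} {F : Set Δ} {o d : Δ} {u : Γ} (h : Dat Q F o d u)
include h

omit [Finite Γ] in
theorem fin : F.Finite := Set.finite_of_ncard_ne_zero (by rw [h.cardF]; norm_num)

omit [Finite Γ] in
theorem fix {q : Γ} (hq : q ∈ Q) {p : Δ} (hp : p ∈ F) : q • p = p := by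
  by_cases e : q = 1
  · rw [e, one_smul]
  · exact (h.fixQ q hq e p).2 hp

omit [Finite Γ] in
theorem le_L : Q ≤ stabilizer Γ o ⊓ stabilizer Γ d := fun _ hq => ⟨h.fix hq h.ho, h.fix hq h.hd⟩

omit [Finite Γ] in
theorem ex_ne : ∃ q ∈ Q, q ≠ 1 := by
  by_contra! e
  have := h.cardQ
  rw [(eq_bot_iff (a := Q)).2 e, card_bot] at this
  omega

omit [Finite Γ] in
theorem pres {g q : Γ} (hq : q ∈ Q) (h1 : q ≠ 1) (hg : g⁻¹ * q * g ∈ Q) {p : Δ} (hp : p ∈ F) :
    g • p ∈ F := by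
  refine (h.fixQ q hq h1 _).1 ?_
  have := h.fix hg hp
  rwa [mul_smul, mul_smul, inv_smul_eq_iff] at this

omit [Finite Γ] in
theorem pres' {g : Γ} (hg : ∀ q ∈ Q, g⁻¹ * q * g ∈ Q) {p : Δ} (hp : p ∈ F) : g • p ∈ F :=
  let ⟨q, hq, h1⟩ := h.ex_ne
  h.pres hq h1 (hg q hq) hp

theorem uniq {R : Subgroup Γ} (hR : Nat.card R = 25) (h1 : ∀ x ∈ R, x • o = o)
    (h2 : ∀ x ∈ R, x • d = d) : R = Q :=
  eq_of_card h.cardL (fun x hx => ⟨h1 x hx, h2 x hx⟩) h.le_L hR h.cardQ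

theorem ti (R : Subgroup Γ) (hR : Nat.card R = 25) (q : Γ) (hq : q ∈ R) (hq' : q ∈ Q)
    (h1 : q ≠ 1) : R = Q := by
  have := SzA.fact5
  have hc := IsPGroup.isMulCommutative_of_card_eq_prime_sq (p := 5) (G := R) hR
  have key : ∀ x ∈ R, ∀ p ∈ F, x • p = p := fun x hx p hp => by
    have h2 : x⁻¹ * q * x = q := by
      rw [mul_assoc, show q * x = x * q from
        congrArg Subtype.val (hc.is_comm.comm (⟨q, hq⟩ : R) ⟨x, hx⟩), inv_mul_cancel_left]
    have h3 := pow_mem (pow_smul h.fin (fun _ hp => h.pres hq' h1 (h2.symm ▸ hq') hp) h.cardF.le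
      (m := 12) (fun k h0 hk => by interval_cases k <;> norm_num) hp) 23
    have h4 : x ^ 25 = 1 := hR ▸ congrArg Subtype.val (pow_card_eq_one' (x := (⟨x, hx⟩ : R)))
    rwa [← pow_mul, show 12 * 23 = 25 * 11 + 1 from rfl, pow_succ, pow_mul, h4, one_pow,
      one_mul] at h3
  exact h.uniq hR (fun x hx => key x hx o h.ho) fun x hx => key x hx d h.hd

omit [Finite Γ] in
theorem idx {X : Subgroup Γ} (hX : ∀ x ∈ X, ∀ p ∈ F, x • p ∈ F) :
    Nat.card X ≤ 12 * Nat.card ↥(X ⊓ (stabilizer Γ o ⊓ stabilizer Γ d)) := by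
  have h1 := H46.card_le_mul_of_orbit_subset X o h.fin h.cardF.le fun x hx => hX x hx o h.ho
  have h2 := H46.card_le_mul_of_orbit_subset (X ⊓ stabilizer Γ o) d (h.fin.subset Set.sdiff_subset)
    (S := F \ {o}) (n := 3) (by rw [Set.ncard_sdiff_singleton_of_mem h.ho, h.cardF])
    fun x hx => ⟨hX x hx.1 d h.hd, fun e =>
      h.hod (smul_left_cancel x ((mem_stabilizer_iff.1 hx.2).trans (Eq.symm e)))⟩
  rw [← inf_assoc]
  omega

omit [Finite Γ] in
theorem conj (g : Γ) : Dat (cj g Q) {p | g⁻¹ • p ∈ F} (g • o) (g • d) (g * u * g⁻¹) where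
  cardQ := (card_cj g Q).trans h.cardQ
  fixQ q hq h1 p := by
    rw [Set.mem_ofPred_eq, ← h.fixQ _ (mem_cj.1 hq) fun e => h1 (by
      have : q = g * (g⁻¹ * q * g) * g⁻¹ := by group
      rw [this, e]; simp), mul_smul, mul_smul, smul_inv_smul, smul_left_cancel_iff]
  cardF := by
    rw [← h.cardF]
    exact Set.ncard_preimage_of_injective_subset_range (MulAction.injective g⁻¹)
      fun p _ => MulAction.surjective g⁻¹ p
  ho := by simpa using h.ho
  hd := by simpa using h.hd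
  hod e := h.hod (smul_left_cancel g e)
  cardL := by
    have : stabilizer Γ (g • o) ⊓ stabilizer Γ (g • d) =
        cj g (stabilizer Γ o ⊓ stabilizer Γ d) := by
      ext x
      simp only [mem_cj, mem_inf, mem_stabilizer_iff, mul_smul, inv_smul_eq_iff]
    rw [this, card_cj, h.cardL]
  uo := by simp [mul_smul, h.uo]
  ud := by simp [mul_smul, h.ud]
  ord := by rw [← MulAut.conj_apply, MulEquiv.orderOf_eq, h.ord]
  wF p hp := by rw [conj_pow, mul_smul, mul_smul, h.wF _ hp, smul_inv_smul]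

theorem sq_eq {y : Γ} (hy : y ∈ zpowers u) (h1 : y ≠ 1) (h2 : y ^ 2 = 1) : y = u ^ 4 := by
  classical
  rw [mem_zpowers_iff_mem_range_orderOf, h.ord] at hy
  obtain ⟨i, hi, rfl⟩ := Finset.mem_image.1 hy
  rw [Finset.mem_range] at hi
  rw [← pow_mul, ← orderOf_dvd_iff_pow_eq_one, h.ord] at h2
  interval_cases i <;> first | rfl | omega | simp at h1

/-- An involution commuting with an element of order three, both in the normaliser. -/
theorem fix_of_three {y r : Γ} (hy : ∀ q ∈ Q, y⁻¹ * q * y ∈ Q) (hr : ∀ q ∈ Q, r⁻¹ * q * r ∈ Q)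
    (h3 : orderOf r = 3) (hc : r * y = y * r) : ∃ p ∈ F, y • p = p := by
  have r3 : r ^ 3 = 1 := h3 ▸ pow_orderOf_eq_one r
  obtain ⟨p, hp, e⟩ := exists_fix Nat.prime_three r3 (fun _ => h.pres' hr)
    (by rw [h.cardF]; norm_num)
  refine ⟨p, hp, by_contra fun hne => ?_⟩
  have e' : r • y • p = y • p := by rw [← mul_smul, hc, mul_smul, e]
  have key : ∀ x ∈ F, r • x = x := fun x hx => by
    by_cases h1 : x ∈ ({p, y • p} : Set Δ)
    · rcases h1 with rfl | rfl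
      exacts [e, e']
    · refine fix_two r3 (S := F \ {p, y • p}) (h.fin.subset Set.sdiff_subset) ?_ ?_ ⟨hx, h1⟩
      · rintro z ⟨hz, h2⟩
        refine ⟨h.pres' hr hz, fun h4 => h2 ?_⟩
        rcases h4 with h4 | h4
        · exact Or.inl (smul_left_cancel r (h4.trans e.symm))
        · exact Or.inr (smul_left_cancel r (h4.trans e'.symm))
      · rw [Set.ncard_sdiff (Set.pair_subset hp (h.pres' hy hp)), h.cardF,
          Set.ncard_pair (Ne.symm hne)]
  have := (stabilizer Γ o ⊓ stabilizer Γ d).orderOf_dvd_natCard ⟨key o h.ho, key d h.hd⟩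
  rw [h3, h.cardL] at this
  omega

end Dat

/-- A subgroup of order 15600 with two of its Sylow 5-subgroups. -/
structure Good (Q J R : Subgroup Γ) : Prop where
  cardJ : Nat.card J = 15600
  cardR : Nat.card R = 25
  ql : Q ≤ J
  rl : R ≤ J
  ne : R ≠ Q
  nrm : ∀ j ∈ J, ∀ x ∈ Q ⊔ R, j * x * j⁻¹ ∈ Q ⊔ R

theorem Good.conj {Q J R : Subgroup Γ} (h : Good Q J R) {g : Γ} (hg : cj g Q = Q) :
    Good Q (cj g J) (cj g R) where
  cardJ := (card_cj g J).trans h.cardJ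
  cardR := (card_cj g R).trans h.cardR
  ql := hg ▸ map_mono h.ql
  rl := map_mono h.rl
  ne e := h.ne (map_injective (MulAut.conj g).injective (e.trans hg.symm))
  nrm j hj x hx := by
    rw [← hg, cj, cj, ← Subgroup.map_sup] at hx ⊢
    have := h.nrm _ (mem_cj.1 hj) _ (mem_cj.1 hx)
    exact mem_cj.2 (by simpa [mul_assoc] using this)

/-- The subgroup has a fixed point. -/
def Fx (Δ : Type*) [MulAction Γ Δ] (J : Subgroup Γ) : Prop := ∃ p : Δ, ∀ j ∈ J, j • p = p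

theorem Fx.of_conj {J : Subgroup Γ} {g : Γ} (h : Fx Δ (cj g J)) : Fx Δ J := by
  obtain ⟨p, hp⟩ := h
  refine ⟨g⁻¹ • p, fun j hj => ?_⟩
  have := hp _ (conj_mem_cj hj)
  rwa [mul_smul, mul_smul, ← eq_inv_smul_iff] at this

theorem Good.fx {Q J R : Subgroup Γ} (h : Good Q J R) {p : Δ} (h1 : ∀ x ∈ Q, x • p = p)
    (h2 : ∀ x ∈ R, x • p = p)
    (h3 : ∀ p' : Δ, (∀ x ∈ Q, x • p' = p') → (∀ x ∈ R, x • p' = p') → p' = p) : Fx Δ J := by
  have key : ∀ j ∈ J, ∀ x ∈ Q ⊔ R, x • j • p = j • p := fun j hj x hx => by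
    have := sup_le (c := stabilizer Γ p) h1 h2 (h.nrm _ (inv_mem hj) x hx)
    rwa [mem_stabilizer_iff, inv_inv, mul_smul, mul_smul, inv_smul_eq_iff] at this
  exact ⟨p, fun j hj => h3 _ (fun x hx => key j hj x (mem_sup_left hx))
    fun x hx => key j hj x (mem_sup_right hx)⟩

namespace Dat

variable [Finite Γ] {Q : Subgroup Γ} {F : Set Δ} {o d : Δ} {u : Γ} (h : Dat Q F o d u)
include h

theorem good {J : Subgroup Γ} (hJ : Nat.card J = 15600) (hQ : Q ≤ J) :
    ∃ R M : Subgroup Γ, Good Q J R ∧ M ≤ J ∧ Nat.card M = 24 ∧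
      ∀ m ∈ M, (∀ q ∈ Q, m⁻¹ * q * m ∈ Q) ∧ ∀ q ∈ R, m⁻¹ * q * m ∈ R := by
  have hm := map_subgroupOf_eq_of_le hQ
  obtain ⟨R, M, h1, h2, h3, h4, h5⟩ := count hJ (Q.subgroupOf J)
    ((Nat.card_congr (subgroupOfEquivOfLe hQ).toEquiv).trans h.cardQ)
    (fun R hR q hq hq' h1 => map_injective J.subtype_injective (hm.symm ▸ h.ti _
      ((card_map_of_injective J.subtype_injective).trans hR) q ⟨q, hq, rfl⟩ hq'
      fun e => h1 (Subtype.ext e)))
    fun hn => by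
      have h1 := h.idx (X := J) fun x hx p hp => h.pres' (fun q hq => by
        simpa [mem_subgroupOf] using hn.conj_mem ⟨q, hQ hq⟩ hq ⟨x, hx⟩⁻¹) hp
      have h2 := card_le_of_le (inf_le_right (a := J) (b := stabilizer Γ o ⊓ stabilizer Γ d))
      rw [h.cardL] at h2
      omega
  refine ⟨R.map J.subtype, M.map J.subtype, ⟨hJ, (card_map_of_injective J.subtype_injective).trans h1,
    hQ, map_subtype_le R, fun e => h2 (map_injective J.subtype_injective (e.trans hm.symm)),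
    fun j hj x hx => ?_⟩, map_subtype_le M, (card_map_of_injective J.subtype_injective).trans h3, ?_⟩
  · rw [← hm, ← Subgroup.map_sup] at hx ⊢
    obtain ⟨x, hx, rfl⟩ := hx
    exact ⟨_, h5.conj_mem x hx ⟨j, hj⟩, rfl⟩
  · rintro _ ⟨m, hm, rfl⟩
    refine ⟨fun q hq => (mem_normalizer_iff''.1 (h4 hm).1 ⟨q, hQ hq⟩).1 hq, ?_⟩
    rintro _ ⟨q, hq, rfl⟩
    exact ⟨_, (mem_normalizer_iff''.1 (h4 hm).2 q).1 hq, rfl⟩

theorem exists_cj {X R : Subgroup Γ} (hX : ¬ 5 ^ (2 + 1) ∣ Nat.card X) (hQ : Q ≤ X) (hR : R ≤ X)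
    (cR : Nat.card R = 25) : ∃ g ∈ X, R = cj g Q := by
  obtain ⟨g, hg, e⟩ := H43.exists_conj_of_card hQ hR (p := 5) (k := 2) (by norm_num) h.cardQ cR hX
  exact ⟨g⁻¹, inv_mem hg, Subgroup.ext fun x => by rw [mem_cj, inv_inv, e]⟩

theorem step {J : Subgroup Γ} (hJ : Nat.card J = 15600) (hQ : Q ≤ J) :
    ∃ (l : Γ) (R : Subgroup Γ), Good Q (cj l J) R ∧ (∀ x ∈ R, (u ^ 4)⁻¹ * x * u ^ 4 ∈ R) ∧
      ∃ p : Δ, u ^ 4 • p = p ∧ ∀ x ∈ R, x • p = p := by
  obtain ⟨R, M, hG, hMJ, hM, hn⟩ := h.good hJ hQ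
  set L := stabilizer Γ o ⊓ stabilizer Γ d with hL
  have hF : ∀ m ∈ M, ∀ p ∈ F, m • p ∈ F := fun m hm p => h.pres' (hn m hm).1
  have h1 := h.idx hF
  have h2 : Nat.card ↥(M ⊓ L) ∣ 2 ^ 3 := by
    have := Nat.dvd_gcd (hM ▸ card_dvd_of_le (inf_le_left (a := M) (b := L)))
      (h.cardL ▸ card_dvd_of_le (inf_le_right (a := M) (b := L)))
    simpa using this
  obtain ⟨k, hk, h3⟩ := (Nat.dvd_prime_pow Nat.prime_two).1 h2
  have hu : zpowers u ≤ L := zpowers_le_of_mem ⟨h.uo, h.ud⟩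
  obtain ⟨l, hl, h4⟩ : ∃ l ∈ L, ∀ y ∈ M ⊓ L, l * y * l⁻¹ ∈ zpowers u := by
    have := Fact.mk Nat.prime_two
    obtain ⟨S, hS⟩ := ((IsPGroup.of_card h3).comap_subtype (K := L)).exists_le_sylow
    have h5 : Nat.card (S : Subgroup L) = 2 ^ 3 := by
      rw [S.card_eq_multiplicity, h.cardL, show (200 : ℕ) = 2 ^ 3 * 25 by norm_num,
        Nat.factorization_mul (by norm_num) (by norm_num), Finsupp.add_apply,
        Nat.Prime.factorization_pow Nat.prime_two,
        Nat.factorization_eq_zero_of_not_dvd (by norm_num)]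
      simp
    obtain ⟨l, hl, e⟩ := H43.exists_conj_of_card hu (map_subtype_le (S : Subgroup L))
      Nat.prime_two (k := 3) (by rw [Nat.card_zpowers, h.ord]; norm_num)
      ((card_map_of_injective L.subtype_injective).trans h5) (by rw [h.cardL]; norm_num)
    exact ⟨l, hl, fun y hy => (e y).1 ⟨⟨y, hy.2⟩, hS hy, rfl⟩⟩
  have hlQ : cj l Q = Q :=
    h.uniq ((card_cj _ _).trans h.cardQ)
      (by rintro _ ⟨x, hx, rfl⟩
          exact (mul_mem (mul_mem hl (h.le_L hx)) (inv_mem hl)).1)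
      (by rintro _ ⟨x, hx, rfl⟩
          exact (mul_mem (mul_mem hl (h.le_L hx)) (inv_mem hl)).2)
  have hinv : ∀ y ∈ M ⊓ L, orderOf y = 2 → l * y * l⁻¹ = u ^ 4 := fun y hy h2 => by
    refine h.sq_eq (h4 y hy) (fun e => ?_) (by rw [conj_pow, ← h2, pow_orderOf_eq_one]; simp)
    rw [conj_eq_one_iff.1 e] at h2
    simp at h2
  have := Fact.mk Nat.prime_two
  have := Fact.mk Nat.prime_three
  obtain ⟨⟨y, hy⟩, y2⟩ := exists_prime_orderOf_dvd_card' (G := ↥(M ⊓ L)) 2 (by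
    rw [h3]
    refine dvd_pow_self 2 fun e => ?_
    rw [hM, h3, e] at h1
    omega)
  obtain ⟨⟨r, hr⟩, r3⟩ := exists_prime_orderOf_dvd_card' (G := M) 3 (by rw [hM]; norm_num)
  rw [orderOf_mk] at y2 r3
  have hy4 := hinv y hy y2
  have yF : ∀ p ∈ F, y • p = p := fun p hp => by
    have h5 := h.wF _ (h.pres' (g := l) (fun q hq => mem_cj.1 (hlQ.symm ▸ hq)) hp)
    rwa [← hy4, mul_smul, inv_smul_smul, mul_smul, smul_left_cancel_iff] at h5
  have hc : r * y = y * r := by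
    have h5 : ∀ p ∈ F, (r * y * r⁻¹) • p = p := fun p hp => by
      rw [mul_smul, mul_smul, yF _ (hF _ (inv_mem hr) p hp), smul_inv_smul]
    have h6 := hinv (r * y * r⁻¹) ⟨M.mul_mem (M.mul_mem hr hy.1) (M.inv_mem hr), h5 o h.ho, h5 d h.hd⟩
      (by rw [← MulAut.conj_apply, MulEquiv.orderOf_eq, y2])
    rw [← hy4, mul_left_inj, mul_right_inj, mul_inv_eq_iff_eq_mul] at h6
    exact h6
  obtain ⟨g, -, rfl⟩ := h.exists_cj (by rw [hJ]; norm_num) hQ hG.rl hG.cardR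
  obtain ⟨p, hp, e⟩ := (h.conj g).fix_of_three (hn y hy.1).2 (hn r hr).2 r3 hc
  refine ⟨l, _, hG.conj hlQ, fun x hx => ?_, l • p, ?_, ?_⟩
  · have := (hn y hy.1).2 _ (mem_cj.1 hx)
    rw [← hy4]
    exact mem_cj.2 (by simpa [mul_assoc] using this)
  · rw [← hy4, mul_smul, inv_smul_smul, mul_smul, e]
  · rintro _ ⟨x, hx, rfl⟩
    change (l * x * l⁻¹) • l • p = l • p
    rw [mul_smul, inv_smul_smul, mul_smul, (h.conj g).fix hx hp]

/-- The Sylow 5-subgroups of the point stabiliser that are normalised by the involution. -/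
theorem two (hK : Nat.card (stabilizer Γ o) = 15600)
    (hF : ∀ p ∈ F, p ≠ o → p ∈ orbit (stabilizer Γ o) d) {e : Γ} (he : e • o = o)
    (hw : ∀ p ∈ orbit (stabilizer Γ o) d, u ^ 4 • p = p → p ∈ F ∨ e⁻¹ • p ∈ F)
    {R : Subgroup Γ} (cR : Nat.card R = 25) (hR : ∀ x ∈ R, x • o = o)
    (hn : ∀ x ∈ R, (u ^ 4)⁻¹ * x * u ^ 4 ∈ R) : R = Q ∨ R = cj e Q := by
  obtain ⟨g, hg, rfl⟩ := h.exists_cj (X := stabilizer Γ o) (by rw [hK]; norm_num)
    (fun x hx => h.fix hx h.ho) hR cR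
  have h' := h.conj g
  rw [mem_stabilizer_iff.1 hg] at h'
  obtain ⟨p, ⟨hp, hpo⟩, e1⟩ := exists_fix Nat.prime_two (r := u ^ 4)
    (by rw [← pow_mul, ← orderOf_dvd_iff_pow_eq_one, h.ord]) (S := {p | g⁻¹ • p ∈ F} \ {o})
    (fun p hp => ⟨h'.pres' hn hp.1, fun e =>
      hp.2 (smul_left_cancel (u ^ 4) (Eq.trans e (h.wF o h.ho).symm))⟩)
    (by rw [Set.ncard_sdiff_singleton_of_mem h'.ho, h'.cardF]; norm_num)
  obtain ⟨⟨k, hk⟩, e2⟩ := hF _ hp fun e => hpo (by
    rw [inv_smul_eq_iff, mem_stabilizer_iff.1 hg] at e; exact e)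
  have e3 : (g * k) • d = p := by rw [mul_smul, ← eq_inv_smul_iff]; exact e2
  have h'' := h.conj (g * k)
  rw [mem_stabilizer_iff.1 (mul_mem hg hk), e3] at h''
  have e4 := h''.uniq cR hR fun x hx => h'.fix hx hp
  refine (hw p ⟨⟨_, mul_mem hg hk⟩, e3⟩ e1).imp (fun h1 => ?_) fun h1 => ?_
  · exact e4.trans (h''.uniq h.cardQ (fun x hx => h.fix hx h.ho) fun x hx => h.fix hx h1).symm
  · have h3 := h.conj e
    rw [he] at h3
    exact e4.trans (h''.uniq h3.cardQ (fun x hx => h3.fix hx h3.ho) fun x hx => h3.fix hx h1).symm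

end Dat

end Cfsg.Agent.H44.RfA
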