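import Mathlib
import Cfsg.Agent.H43.Cent
import Cfsg.Agent.H44.RfM
import Cfsg.Agent.H44.RfA
import Cfsg.Agent.H44.Glue

/-!
# Certificates in `²F₄(2)` on 2304 points
-/

set_option autoImplicit false
set_option maxRecDepth 200000
set_option linter.style.longLine false
set_option Elab.async false

namespace Cfsg.Agent.H44.RfD

open Cfsg.Agent.H43 Cfsg.Agent.H44 Cfsg.Agent.H44.RfM Cfsg.Agent.H44.RfA Equiv MulAction

theorem induct {G : Type*} [Group G] [Finite G] {g : ℕ → G} {S : List (List ℕ)} {P : G → Prop}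
    (h1 : P 1) (h : ∀ s ∈ S, ∀ y, P y → P (ev g s * y)) : ∀ y ∈ wgen g S, P y := fun y hy => by
  replace hy : y ∈ (wgen g S).toSubmonoid := hy
  rw [wgen, Subgroup.closure_toSubmonoid_of_finite] at hy
  induction hy using Submonoid.closure_induction_left with
  | one => exact h1
  | mul_left x hx y _ ih =>
    obtain ⟨s, hs, rfl⟩ := hx
    exact h s hs y ih

theorem nth_mem' {W : List (List ℕ)} (h : [] ∈ W) (i : ℕ) : nth [] W i ∈ W :=
  (nth_mem [] W i).elim (fun e => e.symm ▸ h) id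

theorem K_eq : K = grp 2304 E := gen_gp (by decide +kernel)

theorem coe_k (x : ℕ) : (k x : Perm (Fin 2304)) = gp 2304 E code x :=
  subT_coe (K_eq ▸ gp_mem _ _ _ x)

theorem coe_ev (l : List ℕ) : ((ev k l : K) : Perm (Fin 2304)) = ev (gp 2304 E code) l := by
  rw [← K.subtype_apply, map_ev]
  exact ev_congr fun x _ => coe_k x

theorem map_w (S : List (List ℕ)) : (wgen k S).map K.subtype = wgen (gp 2304 E code) S := by
  rw [map_wgen]
  exact congrArg (wgen · S) (funext coe_k)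

theorem orbit_w (S : List (List ℕ)) (p : Fin 2304) :
    orbit (wgen k S) p = orbit (wgen (gp 2304 E code) S) p := by
  rw [← map_w]
  ext q
  exact ⟨fun ⟨x, e⟩ => ⟨⟨x.1, x.1, x.2, rfl⟩, e⟩, fun ⟨⟨_, x, hx, rfl⟩, e⟩ => ⟨⟨x, hx⟩, e⟩⟩

/-- The image of the labelling. -/
noncomputable def val (l : List ℕ) : ℕ := evL (FK 2304 12) E code l (lab 2304 12)

/-- Two words have the same value. -/
noncomputable def eqW (l l' : List ℕ) : Bool := Nat.beq (val l) (val l')

/-- Two words move a set of points in the same way. -/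
noncomputable def eq1 (l l' : List ℕ) : Bool :=
  Nat.beq (evL F1 E code l (pat 2304 0)) (evL F1 E code l' (pat 2304 0))

/-- The fixed points of a word. -/
noncomputable def fixW (l : List ℕ) : ℕ := zeroM 2304 12 (Nat.xor (val l) (lab 2304 12))

theorem mov_val (l : List ℕ) : Mov 2304 12 (ev k l : K) (lab 2304 12) (val l) :=
  coe_ev l ▸ mov_evL (rep_FK m_hn.1 12) E_ok code l _

theorem ev_eq {l l' : List ℕ} (h : eqW l l' = true) : ev k l = ev k l' :=
  Subtype.ext ((det_lab m_hk ⊤).eq trivial trivial (mov_val l) (mov_val l') h)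

theorem ev_ne {l l' : List ℕ} (h : eq1 l l' = false) : ev k l ≠ ev k l' := fun e =>
  (mov_evL (rep_F1 2304) E_ok code l _).ne_of_beq (mov_evL (rep_F1 2304) E_ok code l' _) h
    (by rw [← coe_ev, ← coe_ev, e])

theorem eq1_of {l l' : List ℕ} (h : ev k l = ev k l') : eq1 l l' = true :=
  Bool.of_not_eq_false fun e => ev_ne e h

theorem mem_fixW {l : List ℕ} {p : Fin 2304} : p ∈ pset 2304 (fixW l) ↔ ev k l • p = p :=
  (mov_val l).zeroM_iff m_hk p

theorem smul_eq {l : List ℕ} {a b : ℕ} (ha : a < 2304) (hb : b < 2304)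
    (h : ptL E code l a b = true) : ev k l • (⟨a, ha⟩ : Fin 2304) = ⟨b, hb⟩ := by
  change ((ev k l : K) : Perm (Fin 2304)) _ = _
  rw [coe_ev]
  exact apply_of_ptL E_ok ha hb h

/-- The inverse word. -/
noncomputable def iw (w : List ℕ) : List ℕ := invW (nth 2 [2, 2, 1, 3, 4]) w

theorem k_inv {x y : ℕ} (h : [x, y] ∈ Rf.Rm) : k y = (k x)⁻¹ := by
  have := sat _ h
  rw [ev_cons, ev_single] at this
  exact eq_inv_of_mul_eq_one_right this

theorem k_two : k 2 = (k 1)⁻¹ := k_inv (by decide)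

theorem ev_iw (w : List ℕ) : ev k (iw w) = (ev k w)⁻¹ := ev_invW fun x _ => by
  have h0 : ∀ y, gp 2304 E code y = gp 2304 E code 1 → k 2 = (k y)⁻¹ := fun y h => by
    rw [k_two, inv_inj]
    exact Subtype.ext (by rw [coe_k, coe_k, h])
  match x with
  | 0 => exact h0 0 rfl
  | 1 => exact k_two
  | 2 => exact (inv_eq_iff_eq_inv.1 k_two.symm).trans (by rw [k_two])
  | 3 => exact k_inv (by decide)
  | 4 => exact k_inv (by decide)
  | x + 5 => exact h0 _ rfl

/-- The conjugate word. -/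
noncomputable def cw (w l : List ℕ) : List ℕ := w ++ (l ++ iw w)

theorem ev_cw (w l : List ℕ) : ev k (cw w l) = ev k w * ev k l * (ev k w)⁻¹ := by
  rw [cw, ev_append, ev_append, ev_iw, mul_assoc]

theorem enum {S W : List (List ℕ)} (h0 : [] ∈ W)
    (h : ∀ s ∈ S, ∃ nx, all2 (fun w i => eqW (s ++ w) (nth [] W i)) W nx = true) :
    ∀ y ∈ wgen k S, ∃ w ∈ W, y = ev k w :=
  induct ⟨[], h0, rfl⟩ fun s hs y ⟨w, hw, e⟩ => by
    obtain ⟨nx, h⟩ := h s hs
    obtain ⟨i, hi⟩ := all2_spec h w hw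
    exact ⟨_, nth_mem' h0 i, by rw [e, ← ev_append, ev_eq hi]⟩

theorem le_card {S : List (List ℕ)} {p m : ℕ} (hp : p < 2304)
    (h : orbB 2304 E code S p m = true) : m ≤ Nat.card (wgen k S) := by
  have h1 := H46.card_eq_orbit_mul (wgen k S) (⟨p, hp⟩ : Fin 2304)
  rw [orbit_w, ncard_of_orbB m_hn E_ok hp h] at h1
  rw [h1]
  exact Nat.le_mul_of_pos_right _ Nat.card_pos

/-- The base point. -/
abbrev o : Fin 2304 := ⟨0, by decide⟩

/-- The second point. -/
abbrev d : Fin 2304 := ⟨1, by decide⟩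

/-- The point stabiliser. -/
noncomputable abbrev K0 : Subgroup K := wgen k [[1], [2], [3]]

theorem K0_eq : K0 = stabilizer K o := Subgroup.ext fun x => act.stab x

theorem card_K0 : Nat.card K0 = 15600 := by
  have h := K0.index_mul_card
  rw [act.index, RfM.card, Nat.card_eq_fintype_card, Fintype.card_fin] at h
  omega

theorem trans (p : Fin 2304) : ∃ x : K, x • o = p := act.trans p

theorem ev_mem3 {l : List ℕ} (hl : lettersIn 3 l = true) : ev k l ∈ K0 :=
  (gen_eq_wgen k 3).le (ev_mem fun x hx => let h := lettersIn_iff.1 hl x hx; mem_gen k h.1 h.2)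

theorem card_L : Nat.card ↥(stabilizer K o ⊓ stabilizer K d) = 200 := by
  have h1 := H46.card_eq_orbit_mul K0 d
  rw [orbit_w, ncard_of_orbB (m := 78) m_hn E_ok _ (by decide +kernel), card_K0, K0_eq] at h1
  omega

/-- An element of order five. -/
def q1 : List ℕ := [3, 2, 2, 3, 1, 1, 3, 1, 1, 1, 1]

/-- Another one. -/
noncomputable def q2 : List ℕ := cw [1] q1

/-- The Sylow 5-subgroup. -/
noncomputable abbrev Q : Subgroup K := Subgroup.closure {ev k q1, ev k q2}

/-- Its fixed points. -/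
def MF : ℕ := Nat.lor 3 (Nat.lor (Nat.shiftLeft 1 186) (Nat.shiftLeft 1 301))

theorem q_comm : Commute (ev k q1) (ev k q2) := by
  rw [Commute, SemiconjBy, ← ev_append, ← ev_append]
  exact ev_eq (by decide +kernel)

theorem q1_pow : ev k q1 ^ 5 = 1 := by
  rw [← ev_replicate]
  exact ev_eq (l' := []) (by decide +kernel)

theorem q2_pow : ev k q2 ^ 5 = 1 := by rw [q2, ev_cw, conj_pow, q1_pow]; simp

theorem q1_mem : ev k q1 ∈ Q := Subgroup.subset_closure (by simp)

theorem q2_mem : ev k q2 ∈ Q := Subgroup.subset_closure (by simp)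

theorem q1_ne : ev k q1 ≠ 1 := ev_ne (l' := []) (by decide +kernel)

theorem six_fix (i : Fin 6) (p : Fin 2304) :
    SzA.six (ev k q1) (ev k q2) i • p = p ↔ p ∈ pset 2304 MF := by
  have h : ∀ i : Fin 6, Nat.beq (fixW ((List.replicate (![1, 0, 1, 2, 3, 4] i) q1).flatten ++
      (List.replicate (![0, 1, 1, 1, 1, 1] i) q2).flatten)) MF = true := by decide +kernel
  rw [SzA.six, ← ev_replicate, ← ev_replicate, ← ev_append, ← mem_fixW,
    Nat.eq_of_beq_eq_true (h i)]

theorem u_pow (m : ℕ) : k 1 ^ m = ev k (List.replicate m [1]).flatten := by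
  rw [ev_replicate, ev_single]

theorem dat : Dat Q (pset 2304 MF) o d (k 1) where
  cardQ := le_antisymm (SzA.card_pair_le q_comm q1_pow q2_pow)
    ((le_card (S := [q1, q2]) (p := 16) (by decide) (by decide +kernel)).trans
      (Subgroup.card_le_of_le (wgen_le.2 (by simp [q1_mem, q2_mem]))))
  fixQ q hq h1 p := by
    constructor
    · intro h
      obtain ⟨i, hi⟩ := SzA.six_zpowers q_comm q1_pow q2_pow q hq h1
      exact (six_fix i p).1 (Subgroup.zpowers_le_of_mem (H := stabilizer K p) h hi)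
    · intro h
      have h1 := (six_fix 0 p).2 h
      have h2 := (six_fix 1 p).2 h
      refine (Subgroup.closure_le (stabilizer K p)).2 ?_ hq
      rintro _ (rfl | rfl)
      · simpa [SzA.six] using h1
      · simpa [SzA.six] using h2
  cardF := by rw [← pcnt_eq m_hn.2]; decide +kernel
  ho := by rw [mem_pset]; decide +kernel
  hd := by rw [mem_pset]; decide +kernel
  hod := by decide
  cardL := card_L
  uo := ev_single k 1 ▸ smul_eq _ _ (by decide +kernel)
  ud := ev_single k 1 ▸ smul_eq _ _ (by decide +kernel)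
  ord := orderOf_eq_prime_pow (p := 2) (n := 2)
    (by rw [u_pow]; exact ev_ne (l' := []) (by decide +kernel))
    (by rw [u_pow]; exact ev_eq (l' := []) (by decide +kernel))
  wF p hp := by
    rw [u_pow, ← mem_fixW]
    exact pset_subset_of_land (by decide +kernel) hp

/-- An involution normalising the cyclic group of order eight. -/
def e : List ℕ := [3, 2, 2, 3, 1, 1, 3, 2, 2, 3, 1, 1, 3]

theorem two {R : Subgroup K} (cR : Nat.card R = 25) (hR : ∀ x ∈ R, x • o = o)
    (hn : ∀ x ∈ R, (k 1 ^ 4)⁻¹ * x * k 1 ^ 4 ∈ R) : R = Q ∨ R = cj (ev k e) Q := by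
  refine dat.two (K0_eq ▸ card_K0) (fun p hp h0 => ?_) (smul_eq _ _ (by decide +kernel))
    (fun p hp hw => ?_) cR hR hn
  · have h1 := covM_spec E_ok (code := code) (S := [[1], [2], [3]]) o.2 [[4]]
      (pset_subset_of_land (by decide +kernel) hp)
    obtain ⟨t, ht, h2⟩ := h1.resolve_left h0
    rwa [List.mem_singleton.1 ht, apply_of_ptL E_ok o.2 d.2 (by decide +kernel), ← orbit_w,
      show wgen k _ = _ from K0_eq] at h2
  · rw [← K0_eq, orbit_w, wgen_eq_ggrp,
      orbit_eq_pset (den_evL (rep_F1 _) E_ok code _) d.2 (by decide +kernel)] at hp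
    rw [u_pow, ← mem_fixW] at hw
    have h0 := (pset_land 2304 _ _).ge ⟨hp, hw⟩
    have h1 : p ∈ pset 2304 (Nat.lor MF (evL F1 E code e MF)) :=
      pset_subset_of_land (by decide +kernel) h0
    rw [pset_lor, ← (mov_evL (rep_F1 _) E_ok code e MF).image_pset, ← coe_ev] at h1
    refine h1.imp_right ?_
    rintro ⟨z, hz, rfl⟩
    exact (inv_smul_smul (ev k e) z).symm ▸ hz

theorem good_of {J : Subgroup K} {h : List ℕ} (hG : Good Q J (cj (ev k h) Q))
    (hc : Nat.beq (Nat.land (fixW q1) (fixW (cw h q1))) (Nat.shiftLeft 1 0) = true) :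
    Fx (Fin 2304) J := by
  have h1 : ∀ p : Fin 2304, ev k q1 • p = p ∧ ev k (cw h q1) • p = p ↔ p = o := fun p => by
    rw [← mem_fixW, ← mem_fixW, ← Set.mem_inter_iff, ← pset_land, Nat.eq_of_beq_eq_true hc,
      pset_one_shiftLeft o.2, Set.mem_singleton_iff]
  have h2 : ev k (cw h q1) ∈ cj (ev k h) Q := ev_cw h q1 ▸ conj_mem_cj q1_mem
  have h3 := ((dat.conj (ev k h)).fixQ _ h2 (by
    rw [ev_cw, Ne, conj_eq_one_iff]; exact q1_ne) o).1 ((h1 o).2 rfl).2
  exact hG.fx (fun x hx => dat.fix hx dat.ho) (fun x hx => (dat.conj (ev k h)).fix hx h3)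
    fun p h4 h5 => (h1 p).1 ⟨h4 _ q1_mem, h5 _ h2⟩

theorem bad_of {J : Subgroup K} {h : List ℕ} (hG : Good Q J (cj (ev k h) Q))
    (hc : transB 2304 E code [q1, q2, cw h q1] 0 = true) : False := by
  have h1 := H46.card_eq_orbit_mul (wgen k [q1, q2, cw h q1]) o
  rw [orbit_w, orbit_univ_of_transB E_ok o.2 hc, Set.ncard_univ, Nat.card_fin] at h1
  have h2 : wgen k [q1, q2, cw h q1] ≤ J := wgen_le.2 (by
    simp only [List.forall_mem_cons, ev_cw]
    exact ⟨hG.ql q1_mem, hG.ql q2_mem, hG.rl (conj_mem_cj q1_mem), by simp⟩)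
  have h3 := Subgroup.card_dvd_of_le h2
  rw [h1, hG.cardJ] at h3
  exact absurd (dvd_of_mul_right_dvd h3) (by norm_num)

/-- An element of order three. -/
def r : List ℕ := [3, 2, 2, 3, 1, 3, 2, 3, 1, 3, 2, 2, 3, 1]

/-- An element centralising the involution. -/
def t1 : List ℕ := [3, 2, 2, 3, 4, 3, 2, 3, 2, 2, 2, 3]

/-- Another one. -/
def t2 : List ℕ := [3, 2, 4, 3, 1, 4, 3, 4, 2, 3, 4, 1, 3]

theorem comm_w {t : List ℕ} (h : eqW (t ++ [1, 1, 1, 1]) ([1, 1, 1, 1] ++ t) = true) :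
    ev k t * k 1 ^ 4 = k 1 ^ 4 * ev k t := by
  rw [u_pow, ← ev_append, ← ev_append]
  exact ev_eq h

theorem M_le : wgen k [[1], [4], r] ≤
    Subgroup.normalizer (Q : Set K) ⊓ Subgroup.centralizer {k 1 ^ 4} := by
  have h : allL (fun t => eqW (t ++ [1, 1, 1, 1]) ([1, 1, 1, 1] ++ t) &&
      Nat.beq (evL F1 E code t MF) MF) [[1], [4], r] = true := by decide +kernel
  refine wgen_le.2 fun t ht => ?_
  obtain ⟨h1, h2⟩ := Bool.and_eq_true_iff.1 (H44.allL_iff.1 h t ht)
  refine ⟨?_, Subgroup.mem_centralizer_singleton_iff.2 (comm_w h1)⟩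
  have h3 := (mov_evL (rep_F1 _) E_ok code t MF).image_pset
  rw [Nat.eq_of_beq_eq_true h2, ← coe_ev] at h3
  have h4 : ∀ p ∈ pset 2304 MF, (ev k t)⁻¹ • p ∈ pset 2304 MF := fun p hp => by
    obtain ⟨p, h5, rfl⟩ := h3.symm ▸ hp
    exact (inv_smul_smul (ev k t) p).symm ▸ h5
  have h5 := dat.conj (ev k t)
  have h6 := dat.uniq h5.cardQ (fun x hx => h5.fix hx (h4 _ dat.ho))
    fun x hx => h5.fix hx (h4 _ dat.hd)
  refine Subgroup.mem_normalizer_iff.2 fun x => ?_
  conv_rhs => rw [← h6]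
  simp [mem_cj, mul_assoc]

theorem fx_of_le {J : Subgroup K} (hJ : Nat.card J = 15600) (hQ : Q ≤ J) : Fx (Fin 2304) J := by
  obtain ⟨l, R, hG, hn, p, hp, hR⟩ := dat.step hJ hQ
  refine Fx.of_conj (g := l) ?_
  generalize cj l J = J at hG
  have h1 : ∃ t ∈ [[], t1, t2], p ∈ orbit (wgen k [[1], [4], r]) (ev k t • o) := by
    rw [u_pow, ← mem_fixW] at hp
    rcases covM_spec E_ok (code := code) (S := [[1], [4], r]) o.2 [[], t1, t2]
      (pset_subset_of_land (by decide +kernel) hp) with h | ⟨t, ht, h⟩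
    · exact ⟨[], by simp, by rw [h, ev_nil, one_smul]; exact mem_orbit_self _⟩
    · exact ⟨t, ht, by rwa [← orbit_w, ← coe_ev] at h⟩
  obtain ⟨t, ht, ⟨m, hm⟩, rfl⟩ := h1
  have h2 := M_le (inv_mem hm)
  have h3 : ev k t * k 1 ^ 4 = k 1 ^ 4 * ev k t := comm_w (H44.allL_iff.1 (by decide +kernel :
    allL (fun t => eqW (t ++ [1, 1, 1, 1]) ([1, 1, 1, 1] ++ t)) [[], t1, t2] = true) t ht)
  have h4 := hG.conj (cj_eq fun x hx => (Subgroup.mem_normalizer_iff.1 h2.1 x).1 hx)
  refine Fx.of_conj (g := m⁻¹) ?_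
  have h5 : Commute (m * ev k t) (k 1 ^ 4) :=
    Commute.mul_left (Subgroup.mem_centralizer_singleton_iff.1 (M_le hm).2) h3
  have h6 := two (R := cj (m * ev k t)⁻¹ R) ((card_cj _ _).trans hG.cardR) (fun x hx => by
    have := hR _ (mem_cj.1 hx)
    change _ • m • ev k t • o = m • ev k t • o at this
    rwa [inv_inv, ← mul_smul m, mul_smul, inv_smul_smul, mul_smul, smul_left_cancel_iff] at this)
    fun x hx => by
      have := hn _ (mem_cj.1 hx)
      rw [mem_cj, inv_inv] at *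
      rwa [← mul_assoc, ← mul_assoc, ← h5.inv_right.eq, mul_assoc _ _ (k 1 ^ 4),
        h5.inv_left.eq, ← mul_assoc, mul_assoc _ _ x, mul_assoc _ _ (k 1 ^ 4)] at this
  have h7 : cj m⁻¹ R = cj (ev k t) (cj (m * ev k t)⁻¹ R) := by rw [cj_cj]; congr 1; group
  rw [h7] at h4
  generalize cj m⁻¹ J = J at h4
  simp only [List.mem_cons, List.not_mem_nil, or_false] at ht
  rcases h6 with h6 | h6 <;> rw [h6] at h4
  · rcases ht with rfl | rfl | rfl
    · exact absurd (cj_one Q) h4.ne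
    · exact good_of h4 (by decide +kernel)
    · exact (bad_of h4 (by decide +kernel)).elim
  · rw [cj_cj, ← ev_append] at h4
    rcases ht with rfl | rfl | rfl
    · exact good_of h4 (by decide +kernel)
    · exact (bad_of h4 (by decide +kernel)).elim
    · exact (bad_of h4 (by decide +kernel)).elim

/-- A subgroup of index 2304 is conjugate to the point stabiliser. -/
theorem exists_conj {J : Subgroup K} (hJ : Nat.card J = 15600) : ∃ x : K, J = cj x K0 := by
  obtain ⟨R, hR⟩ := Sylow.exists_subgroup_card_pow_prime (G := J) 5 (n := 2) (by rw [hJ]; norm_num)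
  obtain ⟨g, -, hg⟩ := dat.exists_cj (X := ⊤) (by rw [Subgroup.card_top, RfM.card]; norm_num) le_top
    le_top ((Subgroup.card_map_of_injective J.subtype_injective).trans hR)
  obtain ⟨p, hp⟩ := (fx_of_le (J := cj g⁻¹ J) ((card_cj _ _).trans hJ) fun x hx => by
    rw [mem_cj, inv_inv]
    exact Subgroup.map_subtype_le R (hg ▸ conj_mem_cj hx)).of_conj
  obtain ⟨x, rfl⟩ := trans p
  refine ⟨x, Subgroup.eq_of_le_of_card_ge (fun j hj => ?_) (by rw [card_cj, card_K0, hJ])⟩
  rw [mem_cj, K0_eq, mem_stabilizer_iff, mul_smul, mul_smul, hp j hj, inv_smul_smul]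

end Cfsg.Agent.H44.RfD
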