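import Mathlib
import Cfsg.Agent.H44.RfD

/-!
# Certificates in `²F₄(2)` on 2304 points
-/

set_option autoImplicit false
set_option maxRecDepth 200000
set_option linter.style.longLine false
set_option Elab.async false

namespace Cfsg.Agent.H44.RfD

open Cfsg.Agent.H43 Cfsg.Agent.H44 Cfsg.Agent.H44.RfM Cfsg.Agent.H44.RfA Equiv MulAction

/-- The elements of the two-point stabiliser. -/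
def WL : List (List ℕ) := [[],
  [1],
  [2],
  [1, 1],
  [2, 2],
  [1, 1, 1],
  [2, 2, 2],
  [1, 1, 1, 1],
  [3, 2, 2, 3, 1, 1, 3],
  [3, 2, 2, 3, 1, 1, 3, 1],
  [3, 2, 2, 3, 1, 1, 3, 2],
  [1, 3, 2, 2, 3, 1, 1, 3],
  [2, 3, 2, 2, 3, 1, 1, 3],
  [3, 2, 2, 3, 1, 1, 3, 1, 1],
  [1, 3, 2, 2, 3, 1, 1, 3, 1],
  [2, 3, 2, 2, 3, 1, 1, 3, 1],
  [3, 2, 2, 3, 1, 1, 3, 2, 2],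
  [1, 3, 2, 2, 3, 1, 1, 3, 2],
  [2, 3, 2, 2, 3, 1, 1, 3, 2],
  [1, 1, 3, 2, 2, 3, 1, 1, 3],
  [2, 2, 3, 2, 2, 3, 1, 1, 3],
  [3, 2, 3, 1, 3, 2, 3, 1, 3],
  [3, 1, 1, 3, 1, 3, 2, 2, 3],
  [3, 1, 1, 3, 2, 3, 2, 2, 3],
  [3, 2, 2, 3, 1, 1, 3, 1, 1, 1],
  [1, 3, 2, 2, 3, 1, 1, 3, 1, 1],
  [2, 3, 2, 2, 3, 1, 1, 3, 1, 1],
  [1, 1, 3, 2, 2, 3, 1, 1, 3, 1],
  [2, 2, 3, 2, 2, 3, 1, 1, 3, 1],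
  [3, 2, 3, 1, 3, 2, 3, 1, 3, 1],
  [3, 1, 1, 3, 1, 3, 2, 2, 3, 1],
  [3, 1, 1, 3, 2, 3, 2, 2, 3, 1],
  [3, 2, 2, 3, 1, 1, 3, 2, 2, 2],
  [1, 3, 2, 2, 3, 1, 1, 3, 2, 2],
  [2, 3, 2, 2, 3, 1, 1, 3, 2, 2],
  [1, 1, 3, 2, 2, 3, 1, 1, 3, 2],
  [2, 2, 3, 2, 2, 3, 1, 1, 3, 2],
  [3, 2, 3, 1, 3, 2, 3, 1, 3, 2],
  [3, 1, 1, 3, 1, 3, 2, 2, 3, 2],
  [3, 1, 1, 3, 2, 3, 2, 2, 3, 2],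
  [1, 1, 1, 3, 2, 2, 3, 1, 1, 3],
  [2, 2, 2, 3, 2, 2, 3, 1, 1, 3],
  [1, 3, 2, 3, 1, 3, 2, 3, 1, 3],
  [2, 3, 2, 3, 1, 3, 2, 3, 1, 3],
  [3, 1, 1, 3, 1, 1, 3, 2, 2, 3],
  [2, 3, 1, 1, 3, 1, 3, 2, 2, 3],
  [3, 1, 1, 3, 2, 2, 3, 2, 2, 3],
  [1, 3, 1, 1, 3, 2, 3, 2, 2, 3],
  [3, 2, 2, 3, 1, 1, 3, 1, 1, 1, 1],
  [1, 3, 2, 2, 3, 1, 1, 3, 1, 1, 1],
  [2, 3, 2, 2, 3, 1, 1, 3, 1, 1, 1],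
  [1, 1, 3, 2, 2, 3, 1, 1, 3, 1, 1],
  [2, 2, 3, 2, 2, 3, 1, 1, 3, 1, 1],
  [3, 2, 3, 1, 3, 2, 3, 1, 3, 1, 1],
  [3, 1, 1, 3, 1, 3, 2, 2, 3, 1, 1],
  [3, 1, 1, 3, 2, 3, 2, 2, 3, 1, 1],
  [1, 1, 1, 3, 2, 2, 3, 1, 1, 3, 1],
  [2, 2, 2, 3, 2, 2, 3, 1, 1, 3, 1],
  [1, 3, 2, 3, 1, 3, 2, 3, 1, 3, 1],
  [2, 3, 2, 3, 1, 3, 2, 3, 1, 3, 1],
  [3, 1, 1, 3, 1, 1, 3, 2, 2, 3, 1],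
  [2, 3, 1, 1, 3, 1, 3, 2, 2, 3, 1],
  [3, 1, 1, 3, 2, 2, 3, 2, 2, 3, 1],
  [1, 3, 1, 1, 3, 2, 3, 2, 2, 3, 1],
  [1, 3, 2, 2, 3, 1, 1, 3, 2, 2, 2],
  [2, 3, 2, 2, 3, 1, 1, 3, 2, 2, 2],
  [1, 1, 3, 2, 2, 3, 1, 1, 3, 2, 2],
  [2, 2, 3, 2, 2, 3, 1, 1, 3, 2, 2],
  [3, 2, 3, 1, 3, 2, 3, 1, 3, 2, 2],
  [3, 1, 1, 3, 1, 3, 2, 2, 3, 2, 2],
  [3, 1, 1, 3, 2, 3, 2, 2, 3, 2, 2],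
  [1, 1, 1, 3, 2, 2, 3, 1, 1, 3, 2],
  [2, 2, 2, 3, 2, 2, 3, 1, 1, 3, 2],
  [1, 3, 2, 3, 1, 3, 2, 3, 1, 3, 2],
  [2, 3, 2, 3, 1, 3, 2, 3, 1, 3, 2],
  [3, 1, 1, 3, 1, 1, 3, 2, 2, 3, 2],
  [2, 3, 1, 1, 3, 1, 3, 2, 2, 3, 2],
  [3, 1, 1, 3, 2, 2, 3, 2, 2, 3, 2],
  [1, 3, 1, 1, 3, 2, 3, 2, 2, 3, 2],
  [1, 1, 1, 1, 3, 2, 2, 3, 1, 1, 3],
  [1, 1, 3, 2, 3, 1, 3, 2, 3, 1, 3],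
  [2, 2, 3, 2, 3, 1, 3, 2, 3, 1, 3],
  [3, 1, 1, 3, 1, 1, 1, 3, 2, 2, 3],
  [1, 3, 1, 1, 3, 1, 1, 3, 2, 2, 3],
  [2, 3, 1, 1, 3, 1, 1, 3, 2, 2, 3],
  [2, 2, 3, 1, 1, 3, 1, 3, 2, 2, 3],
  [3, 1, 1, 3, 2, 2, 2, 3, 2, 2, 3],
  [1, 3, 1, 1, 3, 2, 2, 3, 2, 2, 3],
  [2, 3, 1, 1, 3, 2, 2, 3, 2, 2, 3],
  [1, 1, 3, 1, 1, 3, 2, 3, 2, 2, 3],
  [1, 3, 2, 2, 3, 1, 1, 3, 1, 1, 1, 1],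
  [1, 1, 3, 2, 2, 3, 1, 1, 3, 1, 1, 1],
  [3, 2, 3, 1, 3, 2, 3, 1, 3, 1, 1, 1],
  [3, 1, 1, 3, 1, 3, 2, 2, 3, 1, 1, 1],
  [3, 1, 1, 3, 2, 3, 2, 2, 3, 1, 1, 1],
  [1, 3, 2, 3, 1, 3, 2, 3, 1, 3, 1, 1],
  [2, 3, 2, 3, 1, 3, 2, 3, 1, 3, 1, 1],
  [2, 3, 1, 1, 3, 1, 3, 2, 2, 3, 1, 1],
  [3, 1, 1, 3, 2, 2, 3, 2, 2, 3, 1, 1],
  [1, 3, 1, 1, 3, 2, 3, 2, 2, 3, 1, 1],
  [1, 1, 3, 2, 3, 1, 3, 2, 3, 1, 3, 1],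
  [2, 2, 3, 2, 3, 1, 3, 2, 3, 1, 3, 1],
  [3, 1, 1, 3, 1, 1, 1, 3, 2, 2, 3, 1],
  [2, 3, 1, 1, 3, 1, 1, 3, 2, 2, 3, 1],
  [2, 2, 3, 1, 1, 3, 1, 3, 2, 2, 3, 1],
  [3, 1, 1, 3, 2, 2, 2, 3, 2, 2, 3, 1],
  [1, 3, 1, 1, 3, 2, 2, 3, 2, 2, 3, 1],
  [2, 3, 1, 1, 3, 2, 2, 3, 2, 2, 3, 1],
  [1, 1, 3, 1, 1, 3, 2, 3, 2, 2, 3, 1],
  [1, 1, 3, 2, 2, 3, 1, 1, 3, 2, 2, 2],
  [3, 2, 3, 1, 3, 2, 3, 1, 3, 2, 2, 2],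
  [3, 1, 1, 3, 1, 3, 2, 2, 3, 2, 2, 2],
  [3, 1, 1, 3, 2, 3, 2, 2, 3, 2, 2, 2],
  [1, 1, 1, 3, 2, 2, 3, 1, 1, 3, 2, 2],
  [2, 2, 2, 3, 2, 2, 3, 1, 1, 3, 2, 2],
  [1, 3, 2, 3, 1, 3, 2, 3, 1, 3, 2, 2],
  [2, 3, 2, 3, 1, 3, 2, 3, 1, 3, 2, 2],
  [2, 3, 1, 1, 3, 1, 3, 2, 2, 3, 2, 2],
  [1, 3, 1, 1, 3, 2, 3, 2, 2, 3, 2, 2],
  [1, 1, 1, 1, 3, 2, 2, 3, 1, 1, 3, 2],
  [1, 1, 3, 2, 3, 1, 3, 2, 3, 1, 3, 2],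
  [2, 2, 3, 2, 3, 1, 3, 2, 3, 1, 3, 2],
  [3, 1, 1, 3, 1, 1, 1, 3, 2, 2, 3, 2],
  [2, 2, 3, 1, 1, 3, 1, 3, 2, 2, 3, 2],
  [3, 1, 1, 3, 2, 2, 2, 3, 2, 2, 3, 2],
  [1, 1, 3, 1, 1, 3, 2, 3, 2, 2, 3, 2],
  [3, 2, 3, 1, 3, 2, 3, 2, 3, 1, 1, 3],
  [3, 2, 3, 2, 3, 1, 1, 3, 1, 3, 1, 3],
  [3, 2, 3, 2, 3, 2, 2, 3, 1, 3, 1, 3],
  [3, 2, 2, 3, 1, 3, 1, 3, 2, 3, 1, 3],
  [1, 1, 1, 3, 2, 3, 1, 3, 2, 3, 1, 3],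
  [2, 2, 2, 3, 2, 3, 1, 3, 2, 3, 1, 3],
  [1, 3, 1, 1, 3, 1, 1, 1, 3, 2, 2, 3],
  [2, 3, 1, 1, 3, 1, 1, 1, 3, 2, 2, 3],
  [2, 2, 2, 3, 1, 1, 3, 1, 3, 2, 2, 3],
  [1, 3, 1, 1, 3, 2, 2, 2, 3, 2, 2, 3],
  [2, 3, 1, 1, 3, 2, 2, 2, 3, 2, 2, 3],
  [1, 1, 1, 3, 1, 1, 3, 2, 3, 2, 2, 3],
  [1, 1, 3, 2, 2, 3, 1, 1, 3, 1, 1, 1, 1],
  [3, 1, 1, 3, 1, 3, 2, 2, 3, 1, 1, 1, 1],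
  [2, 3, 1, 1, 3, 1, 3, 2, 2, 3, 1, 1, 1],
  [3, 1, 1, 3, 2, 2, 3, 2, 2, 3, 1, 1, 1],
  [3, 1, 1, 3, 1, 1, 1, 3, 2, 2, 3, 1, 1],
  [2, 2, 3, 1, 1, 3, 1, 3, 2, 2, 3, 1, 1],
  [3, 1, 1, 3, 2, 2, 2, 3, 2, 2, 3, 1, 1],
  [2, 3, 1, 1, 3, 2, 2, 3, 2, 2, 3, 1, 1],
  [3, 2, 3, 1, 3, 2, 3, 2, 3, 1, 1, 3, 1],
  [3, 2, 3, 2, 3, 1, 1, 3, 1, 3, 1, 3, 1],
  [3, 2, 3, 2, 3, 2, 2, 3, 1, 3, 1, 3, 1],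
  [3, 2, 2, 3, 1, 3, 1, 3, 2, 3, 1, 3, 1],
  [1, 3, 1, 1, 3, 1, 1, 1, 3, 2, 2, 3, 1],
  [2, 3, 1, 1, 3, 1, 1, 1, 3, 2, 2, 3, 1],
  [2, 2, 2, 3, 1, 1, 3, 1, 3, 2, 2, 3, 1],
  [1, 3, 1, 1, 3, 2, 2, 2, 3, 2, 2, 3, 1],
  [2, 3, 1, 1, 3, 2, 2, 2, 3, 2, 2, 3, 1],
  [1, 1, 1, 3, 2, 2, 3, 1, 1, 3, 2, 2, 2],
  [1, 3, 2, 3, 1, 3, 2, 3, 1, 3, 2, 2, 2],
  [1, 1, 1, 1, 3, 2, 2, 3, 1, 1, 3, 2, 2],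
  [1, 1, 3, 2, 3, 1, 3, 2, 3, 1, 3, 2, 2],
  [3, 1, 1, 3, 2, 2, 2, 3, 2, 2, 3, 2, 2],
  [3, 2, 3, 1, 3, 2, 3, 2, 3, 1, 1, 3, 2],
  [3, 2, 3, 2, 3, 1, 1, 3, 1, 3, 1, 3, 2],
  [1, 1, 1, 3, 2, 3, 1, 3, 2, 3, 1, 3, 2],
  [1, 3, 1, 1, 3, 1, 1, 1, 3, 2, 2, 3, 2],
  [2, 3, 1, 1, 3, 1, 1, 1, 3, 2, 2, 3, 2],
  [1, 3, 1, 1, 3, 2, 2, 2, 3, 2, 2, 3, 2],
  [2, 3, 1, 1, 3, 2, 2, 2, 3, 2, 2, 3, 2],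
  [2, 3, 2, 3, 1, 3, 2, 3, 2, 3, 1, 1, 3],
  [1, 3, 2, 3, 2, 3, 1, 1, 3, 1, 3, 1, 3],
  [2, 3, 2, 3, 2, 3, 1, 1, 3, 1, 3, 1, 3],
  [1, 3, 2, 3, 2, 3, 2, 2, 3, 1, 3, 1, 3],
  [2, 3, 2, 3, 2, 3, 2, 2, 3, 1, 3, 1, 3],
  [3, 2, 3, 1, 1, 1, 3, 2, 2, 2, 3, 1, 3],
  [1, 1, 3, 1, 1, 3, 1, 1, 1, 3, 2, 2, 3],
  [2, 2, 3, 1, 1, 3, 2, 2, 2, 3, 2, 2, 3],
  [3, 1, 1, 3, 1, 1, 1, 3, 2, 2, 3, 1, 1, 1],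
  [3, 1, 1, 3, 2, 2, 2, 3, 2, 2, 3, 1, 1, 1],
  [3, 2, 3, 2, 3, 2, 2, 3, 1, 3, 1, 3, 1, 1],
  [3, 2, 2, 3, 1, 3, 1, 3, 2, 3, 1, 3, 1, 1],
  [1, 3, 1, 1, 3, 1, 1, 1, 3, 2, 2, 3, 1, 1],
  [2, 3, 1, 1, 3, 1, 1, 1, 3, 2, 2, 3, 1, 1],
  [1, 3, 1, 1, 3, 2, 2, 2, 3, 2, 2, 3, 1, 1],
  [2, 3, 2, 3, 1, 3, 2, 3, 2, 3, 1, 1, 3, 1],
  [1, 3, 2, 3, 2, 3, 1, 1, 3, 1, 3, 1, 3, 1],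
  [2, 3, 2, 3, 2, 3, 1, 1, 3, 1, 3, 1, 3, 1],
  [1, 3, 2, 3, 2, 3, 2, 2, 3, 1, 3, 1, 3, 1],
  [2, 3, 2, 3, 2, 3, 2, 2, 3, 1, 3, 1, 3, 1],
  [2, 2, 3, 1, 1, 3, 2, 2, 2, 3, 2, 2, 3, 1],
  [3, 1, 1, 3, 2, 2, 2, 3, 2, 2, 3, 2, 2, 2],
  [3, 2, 3, 1, 3, 2, 3, 2, 3, 1, 1, 3, 2, 2],
  [1, 3, 1, 1, 3, 2, 2, 2, 3, 2, 2, 3, 2, 2],
  [2, 3, 2, 3, 1, 3, 2, 3, 2, 3, 1, 1, 3, 2],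
  [3, 1, 1, 3, 2, 2, 2, 3, 2, 2, 3, 1, 1, 1, 1],
  [3, 2, 3, 2, 3, 2, 2, 3, 1, 3, 1, 3, 1, 1, 1],
  [1, 3, 1, 1, 3, 2, 2, 2, 3, 2, 2, 3, 1, 1, 1],
  [2, 3, 2, 3, 2, 3, 2, 2, 3, 1, 3, 1, 3, 1, 1],
  [1, 3, 1, 1, 3, 2, 2, 2, 3, 2, 2, 3, 2, 2, 2],
  [2, 3, 2, 3, 1, 3, 2, 3, 2, 3, 1, 1, 3, 2, 2],
  [1, 3, 1, 1, 3, 2, 2, 2, 3, 2, 2, 3, 1, 1, 1, 1],
  [2, 3, 2, 3, 2, 3, 2, 2, 3, 1, 3, 1, 3, 1, 1, 1]]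

theorem L_eq : wgen k [[1], q1] = stabilizer K o ⊓ stabilizer K d :=
  Subgroup.eq_of_le_of_card_ge (wgen_le.2 (by
    simp only [List.forall_mem_cons, ev_single]
    exact ⟨⟨dat.uo, dat.ud⟩, dat.le_L q1_mem, by simp⟩))
    (card_L.trans_le (le_card (p := 14) (by decide) (by decide +kernel)))

theorem enum_L : ∀ y ∈ wgen k [[1], q1], ∃ w ∈ WL, y = ev k w :=
  enum (List.mem_cons_self ..) (by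
    simp only [List.forall_mem_cons]
    exact ⟨⟨[1, 3, 0, 5, 2, 7, 4, 6, 11, 14, 17, 19, 8, 25, 27, 9, 33, 35, 10, 40, 12, 42, 39, 47, 49, 51, 13, 56, 15, 58, 23, 63, 64, 66, 16, 71, 18, 73, 70, 78, 79, 20, 80, 21, 83, 22, 87, 89, 90, 91, 24, 88, 26, 95, 31, 99, 77, 28, 100, 29, 65, 30, 106, 108, 109, 32, 113, 34, 115, 112, 118, 119, 36, 120, 37, 50, 38, 57, 125, 41, 130, 43, 132, 48, 44, 45, 135, 52, 46, 137, 138, 107, 134, 55, 121, 123, 53, 54, 84, 116, 117, 59, 150, 60, 61, 153, 75, 62, 110, 155, 156, 131, 101, 157, 67, 158, 68, 69, 96, 72, 162, 74, 163, 76, 165, 92, 151, 168, 170, 144, 111, 81, 173, 82, 85, 171, 86, 152, 145, 94, 93, 103, 179, 97, 181, 98, 180, 183, 185, 176, 172, 102, 104, 186, 105, 141, 143, 114,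 140, 190, 133, 187, 139, 178, 122, 182, 124, 126, 129, 127, 175, 128, 159, 188, 136, 174, 194, 169, 192, 166, 142, 195, 146, 149, 147, 161, 148, 154, 196, 164, 167, 160, 198, 184, 199, 177, 191, 189, 197, 193], by decide +kernel⟩,
      ⟨[48, 32, 24, 16, 13, 10, 9, 8, 52, 75, 28, 140, 143, 44, 162, 158, 20, 97, 104, 157, 138, 188, 173, 78, 60, 130, 120, 119, 109, 159, 172, 47, 36, 61, 85, 141, 91, 192, 178, 118, 168, 146, 161, 87, 19, 180, 3, 71, 67, 117, 80, 79, 66, 124, 166, 63, 183, 128, 127, 106, 27, 170, 5, 40, 45, 123, 98, 51, 176, 149, 101, 187, 126, 175, 57, 35, 151, 1, 113, 0, 58, 107, 171, 100, 193, 152, 89, 148, 163, 114, 76, 77, 86, 136, 99, 147, 84, 185, 7, 56, 95, 145, 186, 189, 156, 108, 177, 132, 72, 62,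 144, 129, 81, 174, 160, 142, 41, 133, 155, 2, 42, 88, 182, 134, 125, 103, 137, 191, 68, 49, 164, 121, 181, 111, 122, 94, 14, 105, 46, 154, 169, 6, 195, 115, 116, 150, 110, 167, 37, 90, 194, 69, 82, 131, 25, 179, 102, 4, 73, 96, 92, 197, 184, 153, 139, 55, 11, 83, 165, 54, 22, 34, 17, 33, 196, 199, 74, 21, 64, 198, 38, 112, 65, 135, 93, 30, 18, 190, 59, 53, 31, 50, 43, 29, 70, 12, 23, 26, 39, 15], by decide +kernel⟩, by simp⟩)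

theorem s_o : k 4 • o = d := ev_single k 4 ▸ smul_eq _ _ (by decide +kernel)

theorem s_sq : k 4 * k 4 = 1 := mul_eq_one_iff_eq_inv.2 (k_inv (by decide))

theorem s_d : k 4 • d = o := by rw [← s_o, ← mul_smul, s_sq, one_smul]

theorem fix_L {p : Fin 2304} (h1 : k 1 • p = p) (h2 : ev k q1 • p = p) : p = o ∨ p = d := by
  rw [← ev_single k 1] at h1
  have h3 : p ∈ pset 2304 (Nat.lor (Nat.shiftLeft 1 0) (Nat.shiftLeft 1 1)) :=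
    pset_subset_of_land (x := Nat.land (fixW [1]) (fixW q1)) (by decide +kernel)
      (by rw [pset_land]; exact ⟨mem_fixW.2 h1, mem_fixW.2 h2⟩)
  rwa [pset_lor, pset_one_shiftLeft o.2, pset_one_shiftLeft d.2] at h3

theorem cent {y : K} (h1 : y * k 1 = k 1 * y) (h2 : y * ev k q1 = ev k q1 * y) : y = 1 := by
  have h : allL (fun w => (w == [] || !(eq1 (w ++ [1]) ([1] ++ w) && eq1 (w ++ q1) (q1 ++ w))) &&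
      !(eq1 (4 :: w ++ [1]) ([1] ++ 4 :: w) && eq1 (4 :: w ++ q1) (q1 ++ 4 :: w))) WL = true := by
    decide +kernel
  have key : ∀ w, y = ev k w → (eq1 (w ++ [1]) ([1] ++ w) && eq1 (w ++ q1) (q1 ++ w)) = true :=
    fun w e => Bool.and_eq_true_iff.2
      ⟨eq1_of (by rw [ev_append, ev_append, ev_single, ← e, h1]),
        eq1_of (by rw [ev_append, ev_append, ← e, h2])⟩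
  have h3 : ∀ p : Fin 2304, p = o ∨ p = d → y • p = o ∨ y • p = d := fun p hp => by
    have h4 : k 1 • p = p ∧ ev k q1 • p = p := by
      rcases hp with rfl | rfl
      exacts [⟨dat.uo, (dat.le_L q1_mem).1⟩, ⟨dat.ud, (dat.le_L q1_mem).2⟩]
    exact fix_L (by rw [← mul_smul, ← h1, mul_smul, h4.1]) (by rw [← mul_smul, ← h2, mul_smul, h4.2])
  have h4 : y • o ≠ y • d := fun e => dat.hod (smul_left_cancel y e)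
  rcases h3 o (Or.inl rfl) with e | e
  · obtain ⟨w, hw, rfl⟩ := enum_L y (L_eq ▸ ⟨e, (h3 d (Or.inr rfl)).resolve_left
      fun e' => h4 (e.trans e'.symm)⟩)
    have h5 := (Bool.and_eq_true_iff.1 (H44.allL_iff.1 h w hw)).1
    rw [key w rfl] at h5
    rw [show w = [] by simpa using h5, ev_nil]
  · have e' := (h3 d (Or.inr rfl)).resolve_right fun e' => h4 (e.trans e'.symm)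
    obtain ⟨w, hw, e2⟩ := enum_L (k 4 * y) (L_eq ▸
      ⟨show (k 4 * y) • o = o by rw [mul_smul, e, s_d],
        show (k 4 * y) • d = d by rw [mul_smul, e', s_o]⟩)
    have h5 := (Bool.and_eq_true_iff.1 (H44.allL_iff.1 h w hw)).2
    rw [key (4 :: w) (by rw [ev_cons, ← e2, ← mul_assoc, s_sq, one_mul])] at h5
    exact absurd h5 (by decide)

end Cfsg.Agent.H44.RfD
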