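import Mathlib
import Cfsg.Agent.H44.RfD

/-!
# Certificates in `²F₄(2)` on 2304 points
-/

set_option autoImplicit false
set_option maxRecDepth 200000
set_option linter.style.longLine false
set_option Elab.async false

namespace Cfsg.Agent.H44.RfD

open Cfsg.Agent.H43 Cfsg.Agent.H44 Cfsg.Agent.H44.RfM Cfsg.Agent.H44.RfA Equiv MulAction

/-- The elements of a Sylow 2-subgroup of the point stabiliser. -/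
def WS : List (List ℕ) := [[], [1], [2], [2, 2], [1, 1], [2, 2, 2], [1, 1, 1], [1, 1, 1, 1], [3, 2, 2, 3, 1, 1, 3, 2, 2, 3, 1, 1, 3], [3, 1, 1, 3, 2, 2, 3, 1, 1, 3, 2, 2, 3], [3, 2, 2, 3, 1, 1, 3, 2, 2, 3, 1, 1, 3, 1], [3, 1, 1, 3, 2, 2, 3, 1, 1, 3, 2, 2, 3, 1], [3, 2, 2, 3, 1, 1, 3, 2, 2, 3, 1, 1, 3, 2], [3, 1, 1, 3, 2, 2, 3, 1, 1, 3, 2, 2, 3, 2], [3, 1, 1, 3, 2, 2, 3, 1, 1, 3, 2, 2, 3, 1, 1], [3, 2, 2, 3, 1, 1, 3, 2, 2, 3, 1, 1, 3, 1, 1]]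

/-- Conjugating words for its involutions. -/
def CS : List (List ℕ) := [[], [], [], [], [], [], [], [2, 2, 2, 2, 3], [2, 2, 3, 1, 1, 3], [1, 1, 3, 2, 2, 3], [], [], [], [], [2, 2, 3, 1, 1, 3, 1], [2, 2, 3, 1, 1, 3, 2]]

theorem enum_S : ∀ y ∈ wgen k [[1], e], ∃ w ∈ WS, y = ev k w :=
  enum (List.mem_cons_self ..) (by
    simp only [List.forall_mem_cons]
    exact ⟨⟨[1, 4, 0, 2, 6, 3, 7, 5, 13, 12, 9, 8, 15, 14, 10, 11], by decide +kernel⟩,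
      ⟨[8, 10, 12, 14, 15, 11, 13, 9, 0, 7, 1, 5, 2, 6, 3, 4], by decide +kernel⟩, by simp⟩)

theorem card_S : Nat.card (wgen k [[1], e]) = 2 ^ 4 := by
  classical
  refine le_antisymm ?_ (le_card (p := 5) (by decide) (by decide +kernel))
  refine (Set.ncard_le_ncard (s := (wgen k [[1], e] : Set K)) (t := ((WS.map (ev k)).toFinset : Set K))
    fun y hy => ?_).trans ?_
  · obtain ⟨w, hw, rfl⟩ := enum_S y hy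
    simpa using ⟨w, hw, rfl⟩
  · rw [Set.ncard_coe_finset]
    exact (List.toFinset_card_le _).trans (by rw [List.length_map]; decide)

theorem conj_S {y : K} (hy : y ∈ K0) (h : y ^ 2 ^ 3 = 1) :
    ∃ g ∈ K0, ∃ w ∈ WS, g * y * g⁻¹ = ev k w := by
  obtain ⟨g, hg, h1⟩ := exists_conj_mem (P := wgen k [[1], e]) (wgen_le.2 (by
    simp only [List.forall_mem_cons]
    exact ⟨ev_mem3 (by decide), ev_mem3 (by decide), by simp⟩)) Nat.prime_two card_S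
    (by rw [card_K0]; norm_num) hy h
  exact ⟨g, hg, enum_S _ h1⟩

theorem u5 : k 1 ^ 5 = ev k [2, 2, 2] := by rw [u_pow]; exact ev_eq (by decide +kernel)

theorem conj_u {y : K} (hy : y ∈ K0) (h : orderOf y = 8) :
    ∃ g ∈ K0, g * y * g⁻¹ = k 1 ∨ g * y * g⁻¹ = k 1 ^ 5 := by
  obtain ⟨g, hg, w, hw, e1⟩ := conj_S hy (h ▸ pow_orderOf_eq_one y :)
  have h1 : allL (fun w => eqW (List.replicate 4 w).flatten [] || anyL (fun c =>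
      eqW (cw c w) [1] || eqW (cw c w) [2, 2, 2]) [[], e]) WS = true := by decide +kernel
  rcases Bool.or_eq_true_iff.1 (H44.allL_iff.1 h1 w hw) with h2 | h2
  · have h3 := ev_eq h2
    rw [ev_replicate, ← e1, conj_pow, ev_nil, conj_eq_one_iff, ← orderOf_dvd_iff_pow_eq_one, h] at h3
    omega
  · obtain ⟨c, hc, h2⟩ := anyL_iff.1 h2
    refine ⟨ev k c * g, mul_mem (ev_mem3 (List.all_eq_true.1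
      (by decide : [[], e].all (lettersIn 3) = true) c hc)) hg, ?_⟩
    rw [show ev k c * g * y * (ev k c * g)⁻¹ = ev k (cw c w) by rw [ev_cw, ← e1]; group, u5,
      ← ev_single k 1]
    exact (Bool.or_eq_true_iff.1 h2).imp ev_eq ev_eq

/-- Words conjugating the third generator to all involutions. -/
def WB : List (List ℕ) := [[],
  [1],
  [2],
  [1, 1],
  [3, 1],
  [2, 2],
  [3, 2],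
  [1, 1, 1],
  [3, 1, 1],
  [1, 3, 1],
  [2, 3, 1],
  [2, 2, 2],
  [3, 2, 2],
  [1, 3, 2],
  [2, 3, 2],
  [1, 1, 1, 1],
  [3, 1, 1, 1],
  [1, 3, 1, 1],
  [2, 3, 1, 1],
  [1, 1, 3, 1],
  [3, 1, 3, 1],
  [2, 2, 3, 1],
  [3, 2, 3, 1],
  [3, 2, 2, 2],
  [1, 3, 2, 2],
  [2, 3, 2, 2],
  [1, 1, 3, 2],
  [3, 1, 3, 2],
  [2, 2, 3, 2],
  [3, 2, 3, 2],
  [3, 1, 1, 1, 1],
  [1, 3, 1, 1, 1],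
  [2, 3, 1, 1, 1],
  [1, 1, 3, 1, 1],
  [3, 1, 3, 1, 1],
  [2, 2, 3, 1, 1],
  [3, 2, 3, 1, 1],
  [1, 1, 1, 3, 1],
  [3, 1, 1, 3, 1],
  [1, 3, 1, 3, 1],
  [2, 3, 1, 3, 1],
  [2, 2, 2, 3, 1],
  [3, 2, 2, 3, 1],
  [1, 3, 2, 3, 1],
  [2, 3, 2, 3, 1],
  [1, 3, 2, 2, 2],
  [2, 3, 2, 2, 2],
  [1, 1, 3, 2, 2],
  [3, 1, 3, 2, 2],
  [2, 2, 3, 2, 2],
  [3, 2, 3, 2, 2],
  [1, 1, 1, 3, 2],
  [3, 1, 1, 3, 2],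
  [1, 3, 1, 3, 2],
  [2, 3, 1, 3, 2],
  [2, 2, 2, 3, 2],
  [3, 2, 2, 3, 2],
  [1, 3, 2, 3, 2],
  [2, 3, 2, 3, 2],
  [1, 1, 3, 1, 1, 1],
  [3, 1, 3, 1, 1, 1],
  [2, 2, 3, 1, 1, 1],
  [3, 2, 3, 1, 1, 1],
  [1, 1, 1, 3, 1, 1],
  [1, 3, 1, 3, 1, 1],
  [2, 2, 2, 3, 1, 1],
  [3, 2, 2, 3, 1, 1],
  [1, 3, 2, 3, 1, 1],
  [1, 1, 1, 1, 3, 1],
  [3, 1, 1, 1, 3, 1],
  [1, 3, 1, 1, 3, 1],
  [1, 1, 3, 1, 3, 1],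
  [3, 1, 3, 1, 3, 1],
  [3, 2, 3, 1, 3, 1],
  [1, 3, 2, 2, 3, 1],
  [2, 3, 2, 2, 3, 1],
  [1, 1, 3, 2, 3, 1],
  [3, 1, 3, 2, 3, 1],
  [2, 2, 3, 2, 3, 1],
  [1, 1, 3, 2, 2, 2],
  [3, 1, 3, 2, 2, 2],
  [2, 2, 3, 2, 2, 2],
  [3, 2, 3, 2, 2, 2],
  [1, 1, 1, 3, 2, 2],
  [3, 1, 1, 3, 2, 2],
  [2, 3, 1, 3, 2, 2],
  [2, 2, 2, 3, 2, 2],
  [2, 3, 2, 3, 2, 2],
  [1, 1, 1, 1, 3, 2],
  [1, 3, 1, 1, 3, 2],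
  [2, 3, 1, 1, 3, 2],
  [1, 1, 3, 1, 3, 2],
  [2, 2, 3, 1, 3, 2],
  [3, 2, 3, 1, 3, 2],
  [3, 2, 2, 2, 3, 2],
  [2, 3, 2, 2, 3, 2],
  [3, 1, 3, 2, 3, 2],
  [2, 2, 3, 2, 3, 2],
  [3, 2, 3, 2, 3, 2],
  [1, 1, 1, 3, 1, 1, 1],
  [3, 1, 1, 3, 1, 1, 1],
  [1, 3, 1, 3, 1, 1, 1],
  [2, 3, 1, 3, 1, 1, 1],
  [2, 2, 2, 3, 1, 1, 1],
  [3, 2, 2, 3, 1, 1, 1],
  [1, 3, 2, 3, 1, 1, 1],
  [2, 3, 2, 3, 1, 1, 1],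
  [1, 1, 1, 1, 3, 1, 1],
  [3, 1, 1, 1, 3, 1, 1],
  [1, 1, 3, 1, 3, 1, 1],
  [3, 1, 3, 1, 3, 1, 1],
  [3, 2, 2, 2, 3, 1, 1],
  [1, 3, 2, 2, 3, 1, 1],
  [2, 3, 2, 2, 3, 1, 1],
  [1, 1, 3, 2, 3, 1, 1],
  [3, 1, 3, 2, 3, 1, 1],
  [3, 1, 1, 1, 1, 3, 1],
  [1, 3, 1, 1, 1, 3, 1],
  [2, 3, 1, 1, 1, 3, 1],
  [1, 1, 3, 1, 1, 3, 1],
  [1, 1, 1, 3, 1, 3, 1],
  [3, 1, 1, 3, 1, 3, 1],
  [1, 3, 1, 3, 1, 3, 1],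
  [2, 3, 1, 3, 1, 3, 1],
  [1, 3, 2, 3, 1, 3, 1],
  [2, 3, 2, 3, 1, 3, 1],
  [1, 1, 3, 2, 2, 3, 1],
  [3, 1, 3, 2, 2, 3, 1],
  [2, 2, 3, 2, 2, 3, 1],
  [3, 2, 3, 2, 2, 3, 1],
  [1, 1, 1, 3, 2, 3, 1],
  [1, 3, 1, 3, 2, 3, 1],
  [2, 3, 1, 3, 2, 3, 1],
  [2, 2, 2, 3, 2, 3, 1],
  [3, 2, 2, 3, 2, 3, 1],
  [1, 1, 1, 3, 2, 2, 2],
  [3, 1, 1, 3, 2, 2, 2],
  [1, 3, 1, 3, 2, 2, 2],
  [2, 3, 1, 3, 2, 2, 2],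
  [2, 2, 2, 3, 2, 2, 2],
  [3, 2, 2, 3, 2, 2, 2],
  [1, 3, 2, 3, 2, 2, 2],
  [1, 1, 1, 1, 3, 2, 2],
  [3, 1, 1, 1, 3, 2, 2],
  [2, 2, 3, 1, 3, 2, 2],
  [3, 2, 3, 1, 3, 2, 2],
  [3, 2, 2, 2, 3, 2, 2],
  [2, 2, 3, 2, 3, 2, 2],
  [3, 2, 3, 2, 3, 2, 2],
  [3, 1, 1, 1, 1, 3, 2],
  [1, 1, 3, 1, 1, 3, 2],
  [3, 1, 3, 1, 1, 3, 2],
  [2, 2, 3, 1, 1, 3, 2],
  [3, 2, 3, 1, 1, 3, 2],
  [1, 1, 1, 3, 1, 3, 2],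
  [3, 1, 1, 3, 1, 3, 2],
  [2, 2, 2, 3, 1, 3, 2],
  [1, 3, 2, 3, 1, 3, 2],
  [2, 3, 2, 3, 1, 3, 2],
  [2, 3, 2, 2, 2, 3, 2],
  [2, 2, 3, 2, 2, 3, 2],
  [1, 3, 1, 3, 2, 3, 2],
  [2, 3, 1, 3, 2, 3, 2],
  [2, 2, 2, 3, 2, 3, 2],
  [3, 2, 2, 3, 2, 3, 2],
  [1, 3, 2, 3, 2, 3, 2],
  [2, 3, 2, 3, 2, 3, 2],
  [3, 1, 1, 1, 3, 1, 1, 1],
  [1, 3, 1, 1, 3, 1, 1, 1],
  [2, 3, 1, 1, 3, 1, 1, 1],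
  [3, 1, 3, 1, 3, 1, 1, 1],
  [2, 2, 3, 1, 3, 1, 1, 1],
  [3, 2, 3, 1, 3, 1, 1, 1],
  [3, 2, 2, 2, 3, 1, 1, 1],
  [1, 3, 2, 2, 3, 1, 1, 1],
  [2, 3, 2, 2, 3, 1, 1, 1],
  [1, 1, 3, 2, 3, 1, 1, 1],
  [2, 2, 3, 2, 3, 1, 1, 1],
  [3, 2, 3, 2, 3, 1, 1, 1],
  [1, 3, 1, 1, 1, 3, 1, 1],
  [2, 3, 1, 1, 1, 3, 1, 1],
  [1, 1, 1, 3, 1, 3, 1, 1],
  [2, 3, 1, 3, 1, 3, 1, 1],
  [1, 3, 2, 2, 2, 3, 1, 1],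
  [2, 3, 2, 2, 2, 3, 1, 1],
  [3, 1, 3, 2, 2, 3, 1, 1],
  [1, 3, 1, 3, 2, 3, 1, 1],
  [1, 1, 3, 1, 1, 1, 3, 1],
  [3, 2, 3, 1, 1, 1, 3, 1],
  [1, 1, 1, 3, 1, 1, 3, 1],
  [3, 1, 1, 3, 1, 1, 3, 1],
  [1, 3, 1, 1, 3, 1, 3, 1],
  [2, 3, 1, 1, 3, 1, 3, 1],
  [2, 2, 3, 1, 3, 1, 3, 1],
  [3, 2, 3, 1, 3, 1, 3, 1],
  [1, 1, 3, 2, 3, 1, 3, 1],
  [2, 2, 3, 2, 3, 1, 3, 1],
  [3, 2, 3, 2, 3, 1, 3, 1],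
  [1, 1, 1, 3, 2, 2, 3, 1],
  [3, 1, 1, 3, 2, 2, 3, 1],
  [2, 3, 1, 3, 2, 2, 3, 1],
  [2, 2, 2, 3, 2, 2, 3, 1],
  [3, 2, 2, 3, 2, 2, 3, 1],
  [1, 3, 2, 3, 2, 2, 3, 1],
  [1, 1, 1, 1, 3, 2, 3, 1],
  [1, 1, 3, 1, 3, 2, 3, 1],
  [2, 2, 3, 1, 3, 2, 3, 1],
  [3, 2, 3, 1, 3, 2, 3, 1],
  [1, 3, 2, 2, 3, 2, 3, 1],
  [2, 3, 2, 2, 3, 2, 3, 1],
  [3, 1, 1, 1, 3, 2, 2, 2],
  [1, 3, 1, 1, 3, 2, 2, 2],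
  [2, 3, 1, 1, 3, 2, 2, 2],
  [1, 1, 3, 1, 3, 2, 2, 2],
  [2, 2, 3, 1, 3, 2, 2, 2],
  [3, 2, 3, 1, 3, 2, 2, 2],
  [3, 2, 2, 2, 3, 2, 2, 2],
  [1, 3, 2, 2, 3, 2, 2, 2],
  [2, 3, 2, 2, 3, 2, 2, 2],
  [1, 3, 1, 1, 1, 3, 2, 2],
  [2, 3, 2, 3, 1, 3, 2, 2],
  [1, 3, 2, 2, 2, 3, 2, 2],
  [2, 3, 2, 2, 2, 3, 2, 2],
  [2, 2, 2, 3, 2, 3, 2, 2],
  [1, 3, 2, 3, 2, 3, 2, 2],
  [1, 1, 1, 3, 1, 1, 3, 2],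
  [3, 1, 1, 3, 1, 1, 3, 2],
  [2, 3, 1, 3, 1, 1, 3, 2],
  [2, 2, 2, 3, 1, 1, 3, 2],
  [3, 2, 2, 3, 1, 1, 3, 2],
  [1, 3, 2, 3, 1, 1, 3, 2],
  [1, 1, 1, 1, 3, 1, 3, 2],
  [1, 3, 1, 1, 3, 1, 3, 2],
  [1, 1, 3, 2, 3, 1, 3, 2],
  [3, 1, 3, 2, 3, 1, 3, 2],
  [2, 2, 3, 2, 3, 1, 3, 2],
  [2, 2, 3, 2, 2, 2, 3, 2],
  [2, 2, 2, 3, 2, 2, 3, 2],
  [3, 2, 2, 3, 2, 2, 3, 2],
  [3, 1, 3, 1, 3, 2, 3, 2],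
  [1, 3, 2, 2, 3, 2, 3, 2],
  [2, 3, 2, 2, 3, 2, 3, 2],
  [1, 1, 3, 2, 3, 2, 3, 2],
  [3, 1, 3, 2, 3, 2, 3, 2],
  [1, 1, 3, 1, 1, 3, 1, 1, 1],
  [3, 2, 3, 1, 1, 3, 1, 1, 1],
  [2, 2, 2, 3, 1, 3, 1, 1, 1],
  [1, 3, 2, 2, 2, 3, 1, 1, 1],
  [1, 1, 3, 2, 2, 3, 1, 1, 1],
  [3, 1, 3, 2, 2, 3, 1, 1, 1],
  [3, 2, 3, 2, 2, 3, 1, 1, 1],
  [1, 1, 1, 3, 2, 3, 1, 1, 1],
  [3, 1, 1, 3, 2, 3, 1, 1, 1],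
  [3, 2, 2, 3, 2, 3, 1, 1, 1],
  [1, 1, 3, 1, 1, 1, 3, 1, 1],
  [3, 1, 3, 1, 1, 1, 3, 1, 1],
  [2, 2, 3, 2, 2, 2, 3, 1, 1],
  [1, 3, 1, 3, 2, 2, 3, 1, 1],
  [2, 3, 1, 3, 2, 2, 3, 1, 1],
  [1, 1, 3, 1, 3, 2, 3, 1, 1],
  [1, 3, 2, 3, 1, 1, 1, 3, 1],
  [2, 3, 2, 3, 1, 1, 1, 3, 1],
  [3, 1, 1, 1, 3, 1, 1, 3, 1],
  [1, 3, 1, 1, 3, 1, 1, 3, 1],
  [2, 3, 1, 1, 3, 1, 1, 3, 1],
  [1, 1, 3, 1, 1, 3, 1, 3, 1],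
  [3, 1, 3, 1, 1, 3, 1, 3, 1],
  [3, 2, 2, 3, 1, 3, 1, 3, 1],
  [1, 3, 2, 3, 1, 3, 1, 3, 1],
  [2, 3, 2, 3, 1, 3, 1, 3, 1],
  [3, 1, 1, 3, 2, 3, 1, 3, 1],
  [1, 3, 2, 3, 2, 3, 1, 3, 1],
  [2, 3, 2, 3, 2, 3, 1, 3, 1],
  [1, 1, 1, 1, 3, 2, 2, 3, 1],
  [1, 3, 1, 1, 3, 2, 2, 3, 1],
  [3, 2, 3, 1, 3, 2, 2, 3, 1],
  [3, 2, 2, 2, 3, 2, 2, 3, 1],
  [1, 3, 2, 2, 3, 2, 2, 3, 1],
  [2, 3, 2, 2, 3, 2, 2, 3, 1],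
  [1, 1, 3, 2, 3, 2, 2, 3, 1],
  [3, 1, 1, 3, 1, 3, 2, 3, 1],
  [3, 2, 2, 3, 1, 3, 2, 3, 1],
  [1, 3, 2, 3, 1, 3, 2, 3, 1],
  [2, 2, 3, 2, 2, 3, 2, 3, 1],
  [3, 2, 3, 2, 2, 3, 2, 3, 1],
  [2, 3, 1, 1, 1, 3, 2, 2, 2],
  [3, 1, 3, 1, 1, 3, 2, 2, 2],
  [2, 2, 3, 1, 1, 3, 2, 2, 2],
  [3, 1, 1, 3, 1, 3, 2, 2, 2],
  [3, 1, 3, 2, 2, 3, 2, 2, 2],
  [2, 2, 3, 2, 2, 3, 2, 2, 2],
  [2, 2, 3, 2, 3, 1, 3, 2, 2],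
  [3, 2, 3, 2, 2, 2, 3, 2, 2],
  [3, 1, 1, 1, 3, 1, 1, 3, 2],
  [1, 3, 1, 1, 3, 1, 1, 3, 2],
  [2, 3, 2, 2, 3, 1, 1, 3, 2],
  [3, 1, 3, 2, 3, 1, 1, 3, 2],
  [3, 1, 3, 1, 1, 3, 1, 3, 2],
  [1, 1, 1, 3, 2, 3, 1, 3, 2],
  [2, 2, 2, 3, 2, 3, 1, 3, 2],
  [3, 2, 3, 2, 2, 3, 2, 3, 2],
  [3, 1, 1, 3, 2, 3, 2, 3, 2],
  [1, 3, 1, 3, 2, 3, 2, 3, 2],
  [2, 3, 2, 3, 1, 1, 3, 1, 1, 1],
  [3, 2, 2, 2, 3, 1, 3, 1, 1, 1],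
  [1, 3, 2, 3, 2, 2, 3, 1, 1, 1],
  [2, 3, 2, 2, 3, 2, 3, 1, 1, 1],
  [2, 3, 1, 3, 1, 1, 1, 3, 1, 1],
  [3, 1, 1, 3, 1, 3, 2, 3, 1, 1],
  [1, 1, 3, 2, 3, 1, 1, 1, 3, 1],
  [2, 2, 3, 2, 3, 1, 1, 1, 3, 1],
  [3, 1, 3, 1, 1, 3, 1, 1, 3, 1],
  [3, 2, 3, 1, 1, 3, 1, 1, 3, 1],
  [1, 3, 2, 2, 3, 1, 3, 1, 3, 1],
  [3, 2, 3, 2, 3, 2, 3, 1, 3, 1],
  [1, 3, 2, 2, 2, 3, 2, 2, 3, 1],
  [2, 3, 2, 2, 2, 3, 2, 2, 3, 1],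
  [1, 3, 2, 3, 2, 2, 3, 2, 3, 1],
  [2, 3, 2, 3, 2, 2, 3, 2, 3, 1],
  [3, 2, 2, 3, 2, 3, 1, 3, 2, 2],
  [1, 3, 2, 3, 2, 2, 2, 3, 2, 2],
  [1, 3, 2, 2, 2, 3, 1, 3, 1, 1, 1],
  [2, 3, 2, 2, 2, 3, 1, 3, 1, 1, 1],
  [2, 2, 3, 1, 3, 1, 1, 1, 3, 1, 1],
  [2, 3, 2, 2, 3, 2, 3, 1, 3, 2, 2]]

theorem class_b0 : all2 (fun w i => eqW (cw ([1] ++ w) [3]) (cw (nth [] WB i) [3])) WB
    [1, 3, 0, 7, 9, 2, 13, 15, 17, 19, 4, 5, 24, 26, 6, 11, 31, 33, 8, 37, 39, 10, 43, 45, 47, 12, 51, 53, 14, 57, 30, 59, 16, 63, 64, 18, 67, 68, 70, 71, 20, 21, 74, 76, 22, 79, 23, 83, 40, 25, 34, 88, 89, 91, 27, 28, 38, 36, 29, 99, 101, 32, 105, 107, 109, 35, 112, 114, 41, 117, 119, 120, 122, 124, 126, 42, 130, 131, 44, 135, 137, 46, 141, 142, 113, 48, 49, 50, 55, 150, 52, 154, 54, 157,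 118, 56, 161, 58, 165, 149, 168, 82, 60, 61, 174, 176, 62, 65, 179, 181, 153, 183, 84, 66, 163, 186, 139, 187, 69, 189, 144, 191, 166, 72, 195, 73, 198, 148, 75, 203, 204, 205, 77, 78, 208, 116, 211, 213, 80, 81, 217, 215, 86, 219, 85, 129, 221, 87, 224, 103, 225, 115, 90, 230, 231, 232, 92, 233, 93, 94, 95, 196, 96, 97, 240, 242, 98, 180, 244, 100, 236, 102, 155, 247, 248, 104, 251, 106, 143, 254, 108, 223, 110, 178, 111, 257, 259, 170, 260, 237, 263, 265, 121, 123, 268, 162, 125, 271, 273, 274, 127, 128, 277, 279, 133, 272, 132, 282, 200, 134, 177, 175, 136, 173, 138, 246, 192, 199, 140, 280, 145, 216, 146, 147, 283, 262, 294, 151, 152, 169, 172, 156, 252, 298, 290, 158, 159, 160, 264, 299, 167, 164, 193, 302, 207, 267, 171, 281, 287, 234, 305, 285, 182,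 266, 241, 292, 184, 278, 185, 269, 309, 188, 228, 238, 190, 222, 275, 313, 227, 194, 250, 206, 197, 201, 249, 312, 315, 226, 202, 243, 256, 214, 295, 209, 317, 210, 270, 212, 306, 303, 218, 220, 320, 318, 258, 229, 300, 316, 239, 235, 288, 289, 291, 245, 321, 286, 253, 255, 323, 322, 261, 314, 296, 311, 301, 293, 276, 297, 284, 308, 324, 310, 304, 307, 319] = true := by
  decide +kernel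

theorem class_b1 : all2 (fun w i => eqW (cw ([3] ++ w) [3]) (cw (nth [] WB i) [3])) WB
    [0, 4, 6, 8, 1, 12, 2, 16, 3, 20, 22, 23, 5, 27, 29, 30, 7, 34, 36, 38, 9, 42, 10, 11, 48, 50, 52, 13, 56, 14, 15, 60, 62, 33, 17, 66, 18, 69, 19, 72, 73, 53, 21, 77, 51, 80, 82, 84, 24, 49, 25, 44, 26, 41, 93, 94, 28, 96, 98, 100, 31, 104, 32, 108, 110, 111, 35, 115, 116, 37, 70, 121, 39, 40, 127, 129, 109, 43, 134, 136, 45, 140, 46, 143, 47, 145, 146, 148, 149, 151, 153, 155, 147, 54, 55, 95, 57, 164, 58, 167, 59, 170, 172, 173, 61, 171, 178, 142, 63, 76, 64, 65, 185, 113, 130, 67, 68, 131, 188, 190, 163, 71, 166, 194, 154, 197, 199, 74, 202, 75, 114, 117, 207, 162, 78, 210, 79, 183, 215, 216, 81, 208, 107, 83, 156, 85, 86, 92, 87, 88, 226, 89, 229, 90, 124, 91,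 144, 234, 159, 158, 238, 239, 133, 120, 97, 243, 122, 99, 198, 245, 101, 105, 102, 103, 249, 250, 252, 253, 106, 255, 221, 184, 224, 137, 181, 112, 220, 231, 118, 262, 119, 266, 227, 267, 123, 270, 196, 125, 168, 126, 275, 276, 128, 240, 236, 280, 281, 132, 141, 284, 135, 286, 282, 288, 283, 138, 139, 289, 228, 223, 186, 180, 292, 219, 182, 293, 150, 192, 218, 152, 296, 187, 297, 251, 157, 256, 204, 273, 160, 161, 203, 300, 301, 165, 257, 169, 304, 265, 248, 174, 175, 233, 176, 177, 285, 179, 235, 244, 290, 308, 278, 294, 189, 311, 312, 247, 191, 193, 310, 274, 195, 298, 314, 237, 269, 200, 201, 277, 260, 309, 205, 206, 212, 214, 209, 254, 211, 287, 213, 217, 258, 319, 222, 225, 261, 302, 230, 232, 271, 313, 241, 242, 295, 303, 246, 315, 306, 316, 259, 279,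 268, 263, 264, 299, 272, 305, 307, 317, 320, 291, 318, 322, 321, 324, 323] = true := by
  decide +kernel

theorem class_b : ∀ y ∈ K0, ∃ w ∈ WB, y * k 3 * y⁻¹ = ev k (cw w [3]) := by
  have h : ∀ s ∈ [[1], [3]], ∃ nx,
      all2 (fun w i => eqW (cw (s ++ w) [3]) (cw (nth [] WB i) [3])) WB nx = true := by
    simp only [List.forall_mem_cons]
    exact ⟨⟨_, class_b0⟩, ⟨_, class_b1⟩, by simp⟩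
  have h0 : [] ∈ WB := List.mem_cons_self ..
  have h1 : K0 ≤ wgen k [[1], [3]] := wgen_le.2 (by
    have h1 := mem_wgen k (S := [[1], [3]]) [1] (by simp)
    simp only [List.forall_mem_cons]
    refine ⟨h1, ?_, mem_wgen _ _ (by simp), by simp⟩
    rw [ev_single] at h1 ⊢
    exact k_two ▸ inv_mem h1)
  refine fun y hy => induct (P := fun y => ∃ w ∈ WB, y * k 3 * y⁻¹ = ev k (cw w [3]))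
    ⟨[], h0, by rw [ev_cw, ev_nil, ev_single]⟩ (fun s hs y ⟨w, hw, e1⟩ => ?_) y (h1 hy)
  obtain ⟨nx, h⟩ := h s hs
  obtain ⟨i, hi⟩ := all2_spec h w hw
  refine ⟨_, nth_mem' h0 i, ?_⟩
  rw [← ev_eq hi, ev_cw, ev_append]
  rw [ev_cw] at e1
  calc _ = ev k s * (y * k 3 * y⁻¹) * (ev k s)⁻¹ := by group
    _ = _ := by rw [e1]; group

theorem conj_b {y : K} (hy : y ∈ K0) (h : orderOf y = 2) : ∃ w ∈ WB, y = ev k (cw w [3]) := by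
  have y2 : y ^ 2 = 1 := h ▸ pow_orderOf_eq_one y
  obtain ⟨g, hg, w, hw, e1⟩ := conj_S hy (by
    rw [show 2 ^ 3 = 2 * 4 from rfl, pow_mul, y2, one_pow])
  have h1 : all2 (fun w i => w == [] || !eq1 (List.replicate 2 w).flatten [] ||
      eqW (cw (nth [] CS i) w) [3]) WS (List.range 16) = true := by decide +kernel
  obtain ⟨i, h2⟩ := all2_spec h1 w hw
  rw [eq1_of (l' := []) (by rw [ev_replicate, ← e1, conj_pow, y2, ev_nil]; simp)] at h2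
  rcases Bool.or_eq_true_iff.1 h2 with h2 | h2
  · rw [show w = [] by simpa using h2, ev_nil, conj_eq_one_iff] at e1
    rw [e1] at h
    simp at h
  · have h3 := ev_eq h2
    rw [ev_cw, ev_single, ← e1] at h3
    obtain ⟨w, hw, e2⟩ := class_b _ (inv_mem (mul_mem
      (ev_mem3 (lettersIn_nth (W := CS) (by decide) i)) hg))
    exact ⟨w, hw, by rw [← e2, ← h3]; group⟩

end Cfsg.Agent.H44.RfD
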