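import Mathlib
import Cfsg.Agent.H44.RfF

/-!
# Certificates in `²F₄(2)` on 2304 points
-/

set_option autoImplicit false
set_option maxRecDepth 200000
set_option linter.style.longLine false
set_option Elab.async false

namespace Cfsg.Agent.H44.RfD

open Cfsg.Agent.H43 Cfsg.Agent.H44 Cfsg.Agent.H44.RfM Cfsg.Agent.H44.RfA Equiv MulAction

/-- Relators of the point stabiliser. -/
def RK : List (List ℕ) := [[1, 1, 1, 1, 3, 1, 1, 1, 1, 3, 1, 1, 1, 1, 3], [1, 3, 1, 3, 1, 3, 1, 3, 1, 3, 1, 3, 1, 3, 1, 3], [1, 1, 3, 1, 1, 3, 2, 3, 2, 3, 1, 1, 3, 1, 1, 3, 2, 3, 2, 3], [1, 1, 1, 3, 1, 1, 3, 2, 3, 1, 1, 3, 1, 1, 1, 3, 1, 3, 2, 3, 1, 3]]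

/-- Two elements as values of the letters. -/
def tri {G : Type*} [Group G] (a c : G) : ℕ → G
  | 0 => 1
  | 1 => a
  | 2 => a⁻¹
  | 3 => c
  | _ + 4 => 1

theorem map_tri {G G' : Type*} [Group G] [Group G'] (φ : G →* G') (a c : G) :
    (fun x => φ (tri a c x)) = tri (φ a) (φ c) := funext fun x =>
  match x with
  | 0 => map_one φ
  | 1 => rfl
  | 2 => map_inv φ a
  | 3 => rfl
  | _ + 4 => map_one φ

theorem tri_wt {A A' B : List ℕ} (h : ev k A' = (ev k A)⁻¹) :
    tri (ev k A) (ev k B) = wt k [[], A, A', B] := funext fun x =>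
  match x with
  | 0 => rfl
  | 1 => rfl
  | 2 => h.symm
  | 3 => rfl
  | _ + 4 => rfl

theorem ev_tri {l : List ℕ} (hl : lettersIn 3 l = true) : ev (tri (k 1) (k 3)) l = ev k l :=
  ev_congr fun x hx => by
    obtain ⟨h1, h2⟩ := lettersIn_iff.1 hl x hx
    interval_cases x
    exacts [rfl, k_two.symm, rfl]

theorem sat_tri : Sat (tri (k 1) (k 3)) RK := fun l hl => by
  rw [ev_tri (List.all_eq_true.1 (by decide : RK.all (lettersIn 3) = true) l hl)]
  exact sat l ((by decide : ∀ l ∈ RK, l ∈ Rf.Rm) l hl)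

/-- The check for one involution. -/
noncomputable def okB (w : List ℕ) : Bool :=
  (anyL (fun l => !eq1 (Gl.fl [[], [1], [2], cw w [3]] l) []) RK &&
    anyL (fun l => !eq1 (Gl.fl [[], [2, 2, 2], [1, 1, 1], cw w [3]] l) []) RK) ||
    anyL (fun j => eqW (cw w [3]) (cw (List.replicate j [1]).flatten [3])) (List.range 8)

theorem allL_split {W : List (List ℕ)} (h1 : allL okB (W.take 41) = true)
    (h2 : allL okB (W.drop 41) = true) : allL okB W = true := H44.allL_iff.2 fun w hw => by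
  rw [← List.take_append_drop 41 W, List.mem_append] at hw
  exact hw.elim (H44.allL_iff.1 h1 w) (H44.allL_iff.1 h2 w)

theorem chk0 : allL okB (WB.take 41) = true := by decide +kernel

theorem chk1 : allL okB ((WB.drop 41).take 41) = true := by decide +kernel

theorem chk2 : allL okB (((WB.drop 41).drop 41).take 41) = true := by decide +kernel

theorem chk3 : allL okB ((((WB.drop 41).drop 41).drop 41).take 41) = true := by decide +kernel

theorem chk4 : allL okB (((((WB.drop 41).drop 41).drop 41).drop 41).take 41) = true := by decide +kernel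

theorem chk5 : allL okB ((((((WB.drop 41).drop 41).drop 41).drop 41).drop 41).take 41) = true := by decide +kernel

theorem chk6 : allL okB (((((((WB.drop 41).drop 41).drop 41).drop 41).drop 41).drop 41).take 41) = true := by decide +kernel

theorem chk7 : allL okB (((((((WB.drop 41).drop 41).drop 41).drop 41).drop 41).drop 41).drop 41) = true := by decide +kernel

theorem chk_b : allL okB WB = true :=
  allL_split chk0 (allL_split chk1 (allL_split chk2 (allL_split chk3 (allL_split chk4 (allL_split chk5 (allL_split chk6 chk7))))))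

/-- The pairs of generators of the point stabiliser. -/
theorem out {a c : K} (ha : a ∈ K0) (hc : c ∈ K0) (h8 : orderOf a = 8) (h2 : orderOf c = 2)
    (hs : Sat (tri a c) RK) :
    ∃ y ∈ K0, y * c * y⁻¹ = k 3 ∧ (y * a * y⁻¹ = k 1 ∨ y * a * y⁻¹ = k 1 ^ 5) := by
  obtain ⟨g, hg, e1⟩ := conj_u ha h8
  obtain ⟨w, hw, e2⟩ := conj_b (mul_mem (mul_mem hg hc) (inv_mem hg))
    (by rw [← MulAut.conj_apply, MulEquiv.orderOf_eq, h2])
  have h3 := hs.map (MulAut.conj g).toMonoidHom
  rw [map_tri] at h3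
  change Sat (tri (g * a * g⁻¹) (g * c * g⁻¹)) RK at h3
  rw [e2] at h3
  have key : ∀ {A A' : List ℕ}, ev k A' = (ev k A)⁻¹ → g * a * g⁻¹ = ev k A →
      anyL (fun l => !eq1 (Gl.fl [[], A, A', cw w [3]] l) []) RK ≠ true := fun h4 h5 h6 => by
    obtain ⟨l, hl, h7⟩ := anyL_iff.1 h6
    rw [h5, tri_wt h4] at h3
    rw [eq1_of (l' := []) ((Gl.ev_wt _ _ _).symm.trans (h3 l hl))] at h7
    exact absurd h7 (by decide)
  rcases Bool.or_eq_true_iff.1 (H44.allL_iff.1 chk_b w hw) with h4 | h4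
  · obtain ⟨h4, h5⟩ := Bool.and_eq_true_iff.1 h4
    rcases e1 with e1 | e1
    · exact absurd h4 (key (ev_iw [1]) (e1.trans (ev_single k 1).symm))
    · exact absurd h5 (key (ev_iw [2, 2, 2]) (e1.trans u5))
  · obtain ⟨j, -, h4⟩ := anyL_iff.1 h4
    have h5 := e2.trans (ev_eq h4)
    rw [ev_cw, ← u_pow, ev_single] at h5
    have h6 : k 1 ^ j ∈ K0 := pow_mem (ev_single k 1 ▸ ev_mem3 (by decide)) j
    refine ⟨(k 1 ^ j)⁻¹ * g, mul_mem (inv_mem h6) hg, ?_, ?_⟩
    · calc _ = (k 1 ^ j)⁻¹ * (g * c * g⁻¹) * k 1 ^ j := by group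
        _ = _ := by rw [h5]; group
    · rw [show (k 1 ^ j)⁻¹ * g * a * ((k 1 ^ j)⁻¹ * g)⁻¹ = (k 1 ^ j)⁻¹ * (g * a * g⁻¹) * k 1 ^ j by
        group]
      exact e1.imp (fun h => by rw [h]; group) fun h => by rw [h]; group

end Cfsg.Agent.H44.RfD
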