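import Mathlib
import Cfsg.Agent.H44.Perm

set_option autoImplicit false
set_option maxRecDepth 1000000
set_option linter.all false
set_option Elab.async false

namespace Cfsg.Agent.H44.Rf

open Cfsg.Agent.H44 Cfsg.Agent.H43 

/-- The relators. -/
def Rm : List (List ℕ) := [
  [1, 2],
  [3, 3],
  [4, 4],
  [1, 1, 1, 1, 1, 1, 1, 1],
  [1, 1, 1, 1, 3, 1, 1, 1, 1, 3, 1, 1, 1, 1, 3],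
  [1, 3, 1, 3, 1, 3, 1, 3, 1, 3, 1, 3, 1, 3, 1, 3],
  [1, 1, 3, 1, 1, 3, 2, 3, 2, 3, 1, 1, 3, 1, 1, 3, 2, 3, 2, 3],
  [1, 1, 1, 3, 1, 1, 3, 2, 3, 1, 1, 3, 1, 1, 1, 3, 1, 3, 2, 3, 1, 3],
  [1, 1, 1, 4, 1, 4],
  [1, 1, 3, 4, 3, 2, 3, 1, 3, 2, 3, 1, 3, 4, 3, 2, 2, 3],
  [1, 3, 1, 3, 4, 1, 3, 1, 3, 4, 1, 3, 1, 3, 4, 1, 3, 1, 3, 4],
  [1, 1, 1, 3, 4, 2, 3, 1, 1, 4, 3, 4, 2, 3, 4, 2, 3, 1, 3, 4, 3, 2, 3]]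

end Cfsg.Agent.H44.Rf
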