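import Cfsg.Agent.H74.UVDefs

/-! Project UV, piece `TENB`: a translation invariant norm polynomial vanishes. -/

set_option autoImplicit false

namespace Cfsg.Agent.H44.UvTenb

open Cfsg.Agent.H74.UV Finset Polynomial

universe u

variable {K : Type u} [Field K]

def ta (q : ℕ) (δ : K) (k : ℕ) (y : K) : K := (y - δ ^ q) ^ k * (y - δ) ^ (q - 1 - k)
def DD (q : ℕ) (δ e : K) (a : ℕ → K) (y : Fin 11 → K) : K :=
  ∑ k ∈ range q, a k * ∏ j, ta q δ k (y j) - ∑ k ∈ range q, a k * ∏ j, ta q δ k (y j + e)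

theorem ta_mul {q : ℕ} (hq : 2 ≤ q) (δ : K) (k : ℕ) : ta q δ k δ * ta q δ k (δ ^ q) = 0 := by
  rcases k with _ | k
  · simp [ta, show q - 1 ≠ 0 by omega]
  · simp [ta]

theorem deg (q k : ℕ) (hk : k < q) (x y : K) :
    ((X - C x) ^ k * (X - C y) ^ (q - 1 - k)).natDegree < q := by
  rw [((monic_X_sub_C x).pow k).natDegree_mul ((monic_X_sub_C y).pow _), natDegree_pow, natDegree_pow,
    natDegree_X_sub_C, natDegree_X_sub_C]
  omega

theorem ind [DecidableEq K] {m : ℕ} (hm : 2 ≤ m) {x : K} (hx : x ^ m = x) :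
    x ^ (m - 1) = if x = 0 then 0 else 1 := by
  split_ifs with h
  · rw [h, zero_pow (by omega)]
  · exact mul_right_cancel₀ h (by rw [pow_sub_one_mul (by omega), hx, one_mul])

theorem tenb (tena : TenaStmt.{u}) : TenbStmt.{u} := by
  intro K _ _ q δ e a hq hadd hS hδ he he0 h1 h2 H
  classical
  have := Fintype.ofFinite K
  have hsub : ∀ x y : K, (x - y) ^ q = x ^ q - y ^ q := fun x y => by
    rw [eq_sub_iff_add_eq, ← hadd, sub_add_cancel]
  have hit : ∀ (j : ℕ) (c b : K), b ^ q = b → (c - b) ^ q ^ j = c ^ q ^ j - b := fun j c b hb => by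
    induction j with
    | zero => simp
    | succ j ih => rw [pow_succ, pow_mul, pow_mul, ih, hsub, hb]
  set S := univ.filter fun c : K => c ^ q ^ 11 = c with hSd
  set F := univ.filter fun b : K => b ^ q = b with hFd
  have mF : ∀ b, b ∈ F ↔ b ^ q = b := fun b => by simp [hFd]
  have cS : #S = q ^ 11 := by rw [← hS, Nat.card_eq_fintype_card, Fintype.card_subtype]
  have hq11 : q < q ^ 11 := by
    conv_lhs => rw [← pow_one q]
    exact Nat.pow_lt_pow_right (by omega) (by norm_num)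
  set γ : K → K := fun b => DD q δ e a fun _ => b with hγ
  have key : ∀ y : Fin 11 → K,
      DD q δ e a y + (∑ b ∈ F, γ b * ∏ j, (y j - b) ^ (q - 1) - ∑ b ∈ F, γ b) = 0 := by
    have ev : ∀ y : Fin 11 → K, ∑ i ∈ ((range q).disjSum (range q)).disjSum (F.disjSum F),
        Sum.elim (Sum.elim a fun k => -a k) (Sum.elim γ fun b => -γ b) i * ∏ j,
        (Sum.elim (Sum.elim (fun k => (X - C (δ ^ q)) ^ k * (X - C δ) ^ (q - 1 - k))
          fun k => (X - C (δ ^ q - e)) ^ k * (X - C (δ - e)) ^ (q - 1 - k))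
          (Sum.elim (fun b => (X - C b) ^ (q - 1)) fun _ => 1) i : K[X]).eval (y j) =
        DD q δ e a y + (∑ b ∈ F, γ b * ∏ j, (y j - b) ^ (q - 1) - ∑ b ∈ F, γ b) := fun y => by
      simp only [sum_disjSum, Sum.elim_inl, Sum.elim_inr, eval_mul, eval_pow, eval_sub, eval_X, eval_C,
        eval_one, prod_const_one, mul_one, neg_mul, sum_neg_distrib, DD, ta, sub_sub_eq_add_sub,
        sub_eq_add_neg (∑ _ ∈ _, _)]
    intro y
    rw [← ev]
    refine tena K _ q 11 S _ _ _ hq cS.ge ?_ (fun c hc => ?_) y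
    · rintro ((k | k) | (b | b)) hi
      · exact deg q k (by simpa using hi) _ _
      · exact deg q k (by simpa using hi) _ _
      · simp only [Sum.elim_inl, Sum.elim_inr, natDegree_pow, natDegree_X_sub_C]; omega
      · simp only [Sum.elim_inr, natDegree_one]; omega
    rw [ev fun j => c ^ q ^ (j : ℕ)]
    have hc' : c ^ q ^ 11 = c := (mem_filter.1 hc).2
    have h3 : ∀ b ∈ F, γ b * ∏ j : Fin 11, (c ^ q ^ (j : ℕ) - b) ^ (q - 1) - γ b =
        -if c = b then γ b else 0 := fun b hb => by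
      have hb' := (mF b).1 hb
      have e1 : ∏ j : Fin 11, (c ^ q ^ (j : ℕ) - b) ^ (q - 1) = (c - b) ^ (q ^ 11 - 1) := by
        simp only [← hit _ c b hb', ← pow_mul]
        rw [prod_pow_eq_pow_sum, ← sum_mul, Fin.sum_univ_eq_sum_range (fun j => q ^ j),
          Nat.geomSum_eq hq, Nat.div_mul_cancel (Nat.sub_one_dvd_pow_sub_one q 11)]
      rw [e1, ind (by omega) (by rw [hit _ c b hb', hc'])]
      simp only [sub_eq_zero]
      split_ifs <;> simp
    rw [← sum_sub_distrib, sum_congr rfl h3, sum_neg_distrib, sum_ite_eq]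
    split_ifs with h
    · have : (fun j : Fin 11 => c ^ q ^ (j : ℕ)) = fun _ => c := funext fun j => by
        simpa using (hit j c c ((mF c).1 h)).symm.trans (by simp [show q ≠ 0 by omega]) |>
          sub_eq_zero.1
      rw [this, add_neg_cancel]
    · rw [neg_zero, add_zero]
      exact sub_eq_zero.2 (H c hc' (mt (mF c).2 h))
  have nF : ∀ b ∈ F, δ - b ≠ 0 ∧ δ ^ q - b ≠ 0 := fun b hb => by
    have hb' := (mF b).1 hb
    have h3 : δ - b ≠ 0 := fun h => hδ (by rw [sub_eq_zero.1 h, hb'])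
    exact ⟨h3, by rw [← hb', ← hsub]; exact pow_ne_zero _ h3⟩
  set w : K → K := fun b => γ b * ((δ - b) ^ 6 * (δ ^ q - b) * (δ - e - b) * (δ ^ q - e - b)) ^ (q - 1)
    with hw
  have k2 : ∀ b1 ∈ F, ∀ b2 ∈ F, ∑ b ∈ (F.erase b1).erase b2, w b = ∑ b ∈ F, γ b := by
    intro b1 hb1 b2 hb2
    have := key ![δ, δ ^ q, δ - e, δ ^ q - e, b1, b2, δ, δ, δ, δ, δ]
    have z : DD q δ e a ![δ, δ ^ q, δ - e, δ ^ q - e, b1, b2, δ, δ, δ, δ, δ] = 0 := by
      rw [DD, sum_eq_zero fun k _ => ?_, sum_eq_zero fun k _ => ?_, sub_zero]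
      · simp only [Fin.prod_univ_succ, Matrix.cons_val_zero, Matrix.cons_val_succ, sub_add_cancel]
        rw [← mul_assoc (ta q δ k δ), ta_mul hq]
        simp
      · simp only [Fin.prod_univ_succ, Matrix.cons_val_zero, Matrix.cons_val_succ]
        rw [← mul_assoc (ta q δ k δ), ta_mul hq]
        simp
    rw [z, zero_add, sub_eq_zero] at this
    rw [← this, show (F.erase b1).erase b2 = F.filter fun b => b ≠ b1 ∧ b ≠ b2 by
      ext; simp only [mem_erase, mem_filter]; tauto, sum_filter]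
    refine sum_congr rfl fun b hb => ?_
    have i1 := ind hq (show (b1 - b) ^ q = b1 - b by rw [hsub, (mF _).1 hb1, (mF _).1 hb])
    have i2 := ind hq (show (b2 - b) ^ q = b2 - b by rw [hsub, (mF _).1 hb2, (mF _).1 hb])
    have e1 : γ b * ∏ j, (![δ, δ ^ q, δ - e, δ ^ q - e, b1, b2, δ, δ, δ, δ, δ] j - b) ^ (q - 1) =
        w b * ((b1 - b) ^ (q - 1) * (b2 - b) ^ (q - 1)) := by
      simp only [hw, Fin.prod_univ_succ, Matrix.cons_val_zero, Matrix.cons_val_succ, mul_pow,
        Fin.prod_univ_zero]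
      generalize δ - b = x
      ring
    rw [e1, i1, i2]
    simp only [sub_eq_zero, ne_eq, eq_comm (a := b)]
    by_cases c1 : b1 = b <;> by_cases c2 : b2 = b <;> simp [c1, c2]
  have γ0 : ∀ b ∈ F, γ b = 0 := fun b hb => by
    obtain ⟨b1, hb1, hne⟩ : ∃ b1 ∈ F, b ≠ b1 := by
      by_cases h : b = 0
      · exact ⟨1, (mF _).2 (one_pow q), h ▸ zero_ne_one⟩
      · exact ⟨0, (mF _).2 (zero_pow (by omega)), h⟩
    have e1 := k2 b1 hb1 b1 hb1
    rw [erase_idem, ← add_sum_erase _ _ (mem_erase.2 ⟨hne, hb⟩), k2 b1 hb1 b hb, add_eq_right] at e1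
    have hbe : b + e ∈ F := (mF _).2 (by rw [hadd, he, (mF b).1 hb])
    have n1 := nF b hb
    have n2 := nF _ hbe
    rw [add_comm, ← sub_sub, ← sub_sub] at n2
    exact (mul_eq_zero.1 e1).resolve_right (pow_ne_zero _
      (mul_ne_zero (mul_ne_zero (mul_ne_zero (pow_ne_zero _ n1.1) n1.2) n2.1) n2.2))
  have D0 : ∀ y, DD q δ e a y = 0 := fun y => by
    have := key y
    rwa [sum_eq_zero fun b hb => by rw [γ0 b hb, zero_mul], sum_eq_zero γ0, sub_zero, add_zero] at this
  set u : ℕ → K := fun k => a k * (ta q δ k (δ + e) ^ 9 * ta q δ k (δ ^ q + e)) with hu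
  have k3 : ∀ x, ∑ k ∈ range q, u k * ta q δ k x = 0 := fun x => by
    have := D0 ![δ, δ ^ q, x - e, δ, δ, δ, δ, δ, δ, δ, δ]
    rw [DD, sum_eq_zero fun k _ => ?_, zero_sub, neg_eq_zero] at this
    · rw [← this]
      refine sum_congr rfl fun k _ => ?_
      simp only [hu, Fin.prod_univ_succ, Matrix.cons_val_zero, Matrix.cons_val_succ, sub_add_cancel,
        Fin.prod_univ_zero]
      ring
    · simp only [Fin.prod_univ_succ, Matrix.cons_val_zero, Matrix.cons_val_succ]
      rw [← mul_assoc (ta q δ k δ), ta_mul hq]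
      simp
  have p0 : (∑ k ∈ range q, monomial k (u k) : K[X]) = 0 := by
    refine eq_zero_of_natDegree_lt_card_of_eval_eq_zero' _ (S.erase 1) (fun r hr => ?_) ?_
    · have hr1 : 1 - r ≠ 0 := sub_ne_zero.2 (mem_erase.1 hr).1.symm
      have n0 : (δ ^ q - δ) / (1 - r) ≠ 0 := div_ne_zero (sub_ne_zero.2 hδ) hr1
      have := k3 (δ + (δ ^ q - δ) / (1 - r))
      rw [sum_congr rfl (g := fun k => u k * r ^ k * ((δ ^ q - δ) / (1 - r)) ^ (q - 1)) fun k hk => by
        rw [ta, add_sub_cancel_left, show δ + (δ ^ q - δ) / (1 - r) - δ ^ q =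
          r * ((δ ^ q - δ) / (1 - r)) by field_simp; ring, mul_pow, mul_assoc (r ^ k), mul_assoc (u k), ← pow_add,
          Nat.add_sub_cancel' (by have := mem_range.1 hk; omega)], ← sum_mul] at this
      simpa [eval_finsetSum] using (mul_eq_zero.1 this).resolve_right (pow_ne_zero _ n0)
    · have : (∑ k ∈ range q, monomial k (u k) : K[X]).natDegree ≤ q - 1 :=
        natDegree_sum_le_of_forall_le _ _ fun k hk =>
          (natDegree_monomial_le _).trans (by have := mem_range.1 hk; omega)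
      have := pred_card_le_card_erase (s := S) (a := 1)
      omega
  intro k hk
  have := congrArg (coeff · k) p0
  simp only [finsetSum_coeff, coeff_monomial, sum_ite_eq', mem_range, hk, if_true, coeff_zero] at this
  refine (mul_eq_zero.1 this).resolve_right (mul_ne_zero (pow_ne_zero _ ?_) ?_)
  · exact mul_ne_zero (pow_ne_zero _ (sub_ne_zero.2 h1)) (pow_ne_zero _ (by simpa using he0))
  · exact mul_ne_zero (pow_ne_zero _ (by simpa using he0)) (pow_ne_zero _ (sub_ne_zero.2 h2))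

end Cfsg.Agent.H44.UvTenb
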